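/-
Project Q16 (components of the centraliser of a 2-central involution in quasithin groups of even type are normal):
definitions, and the steps of the proof stated as propositions.
-/
import Cfsg.Agent.Ags.Base
import Cfsg.Agent.Even.CharP
import Cfsg.Agent.QT.Defs

set_option autoImplicit false

namespace CL.Q16

open Cfsg Subgroup CL.Even CL.Grp CL.Loc CL.Ags
open scoped commutatorElement

universe u

/-! ### Facts about the simple groups involved -/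

/-- involution centralisers have characteristic 2, up to the four sporadic exceptions -/
def LK (X : Type*) [Group X] : Prop := ∀ s : X, orderOf s = 2 →
  IsCharP 2 (centralizer ({s} : Set X)) ∨
    (Nat.card (centralizer ({s} : Set X)) = 240 ∧ 64 ∣ Nat.card X) ∨
    (Nat.card (centralizer ({s} : Set X)) = 2880 ∧ 256 ∣ Nat.card X) ∨
    (Nat.card (centralizer ({s} : Set X)) = 116480 ∧ 1024 ∣ Nat.card X)

def LKAll : Prop := ∀ (K : Type u) [Group K] [Finite K], IsQuasisimple K → IsPGroup 2 (center K) →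
  IsQTEvenTypeComponent K → LK (K ⧸ center K)

/-- fixed points of an automorphism -/
def fixA {K : Type*} [Group K] (α : MulAut K) : Subgroup K := α.toMonoidHom.eqLocus (MonoidHom.id K)

theorem mem_fixA {K : Type*} [Group K] {α : MulAut K} {x : K} : x ∈ fixA α ↔ α x = x := Iff.rfl

/-- the involutions of a Sylow 2-subgroup commute, and an involutory automorphism fixing them is inner -/
def TA (K : Type*) [Group K] : Prop := ∀ U : Subgroup K, IsSylowIn 2 U ⊤ → IC U ∧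
  ∀ α : MulAut K, α * α = 1 → (∀ a ∈ U, a * a = 1 → α a = a) → ∃ k : K, α = MulAut.conj k

/-- four-groups are self-centralising in the automorphism group -/
def TB (K : Type*) [Group K] : Prop := ∀ a b : K, Inv a → Inv b → a ≠ b → Commute a b →
  ∀ α : MulAut K, α a = a → α b = b → ∃ f : K, (f = 1 ∨ f = a ∨ f = b ∨ f = a * b) ∧ α = MulAut.conj f

/-- shape of a Suzuki 2-group: involutions central, squaring injective modulo them, at least eight cosets -/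
def SzSyl {K : Type*} [Group K] (U : Subgroup K) : Prop :=
  (∀ a ∈ U, a * a = 1 → a ∈ 𝒞(U)) ∧ (∀ s ∈ U, s * s * (s * s) = 1) ∧
  (∀ s ∈ U, ∀ t ∈ U, ⁅s, t⁆ * ⁅s, t⁆ = 1) ∧
  (∀ s ∈ U, ∀ t ∈ U, s * s = t * t → s⁻¹ * t * (s⁻¹ * t) = 1) ∧ 8 * Nat.card (Om U) ≤ Nat.card U

/-- elementary abelian, or generated by two involutions -/
def EDSyl {K : Type*} [Group K] (U : Subgroup K) : Prop :=
  (∀ s ∈ U, s * s = 1) ∨ ∃ b c : K, b * b = 1 ∧ c * c = 1 ∧ U = closure {b, c}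

/-- Sylow 2-subgroups: Suzuki 2-groups, elementary abelian, or generated by two involutions -/
def SylSh (K : Type*) [Group K] : Prop := ∀ U : Subgroup K, IsSylowIn 2 U ⊤ →
  SzSyl U ∨ EDSyl U

/-- what is used about `L₂(2ⁿ)`, `Sz(q)`, `L₂(p)` -/
structure NA (K : Type*) [Group K] : Prop where
  one : ∀ a b : K, Inv a → Inv b → IsConj a b
  four : Four (⊤ : Subgroup K)
  cyc : ∀ D : Subgroup (MulAut K), IsPGroup 2 D →
    ∃ w ∈ D, ∀ s ∈ D, ∃ (i : ℤ) (k : K), (w ^ i)⁻¹ * s = MulAut.conj k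
  ch2 : ∀ α : MulAut K, α * α = 1 → IsCharP 2 (fixA α) → ∃ k : K, α = MulAut.conj k
  ty : TA K ∨ TB K
  sh : SylSh K

/-- `NA` is invariant under isomorphism -/
def NACongr : Prop := ∀ (K : Type u) (K' : Type) [Group K] [Group K'] [Finite K'], Nonempty (K ≃* K') → NA K' → NA K
def NACongr' : Prop := ∀ (K K' : Type u) [Group K] [Group K'] [Finite K'], Nonempty (K ≃* K') → NA K' → NA K

/-- `L₂(2ⁿ)`: the clause `ch2` -/
def NAEven2 : Prop := ∀ (F : Type) [Field F] [Fintype F] [CharP F 2], 4 ≤ Fintype.card F →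
  ∀ α : MulAut (Matrix.ProjectiveSpecialLinearGroup (Fin 2) F), α * α = 1 → IsCharP 2 (fixA α) →
    ∃ k : Matrix.ProjectiveSpecialLinearGroup (Fin 2) F, α = MulAut.conj k
def NAEven : Prop := ∀ (F : Type) [Field F] [Fintype F] [CharP F 2], 4 ≤ Fintype.card F →
  NA (Matrix.ProjectiveSpecialLinearGroup (Fin 2) F)
def NASz : Prop := ∀ (K : Type u) [Group K] [Finite K], Lie.IsoSuzuki K → IsSimpleGroup K → ¬ IsMulCommutative K → NA K
/-- `L₂(p)`, first part: everything but `ch2` and `ty` -/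
def NAOdd1 : Prop := ∀ (F : Type) [Field F] [Fintype F], (Fintype.card F).Prime → 5 ≤ Fintype.card F →
  (∀ a b : Matrix.ProjectiveSpecialLinearGroup (Fin 2) F, Inv a → Inv b → IsConj a b) ∧
  Four (⊤ : Subgroup (Matrix.ProjectiveSpecialLinearGroup (Fin 2) F)) ∧
  (∀ D : Subgroup (MulAut (Matrix.ProjectiveSpecialLinearGroup (Fin 2) F)), IsPGroup 2 D →
    ∃ w ∈ D, ∀ s ∈ D, ∃ (i : ℤ) (k : Matrix.ProjectiveSpecialLinearGroup (Fin 2) F),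
      (w ^ i)⁻¹ * s = MulAut.conj k) ∧
  SylSh (Matrix.ProjectiveSpecialLinearGroup (Fin 2) F)
def NAOdd2 : Prop := ∀ (F : Type) [Field F] [Fintype F], (Fintype.card F).Prime → 5 ≤ Fintype.card F →
  TB (Matrix.ProjectiveSpecialLinearGroup (Fin 2) F)
def NAOdd3 : Prop := ∀ (F : Type) [Field F] [Fintype F], (Fintype.card F).Prime → 5 ≤ Fintype.card F →
  TB (Matrix.ProjectiveSpecialLinearGroup (Fin 2) F) →
  ∀ α : MulAut (Matrix.ProjectiveSpecialLinearGroup (Fin 2) F), α * α = 1 → IsCharP 2 (fixA α) →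
    ∃ k : Matrix.ProjectiveSpecialLinearGroup (Fin 2) F, α = MulAut.conj k
def NAAll : Prop := ∀ (K : Type u) [Group K] [Finite K], IsSimpleGroup K → ¬ IsMulCommutative K →
  QT.CycList K → LK K → NA K

section amb
variable {G : Type*} [Group G]

/-- centraliser of an element -/
abbrev Ce (x : G) : Subgroup G := centralizer ({x} : Set G)

def TyA (J : Subgroup G) : Prop := ∀ U, IsSylowIn 2 U J → IC U
def TyB (J : Subgroup G) : Prop := ∀ a ∈ J, ∀ b ∈ J, Inv a → Inv b → a ≠ b → Commute a b →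
  ∀ y ∈ 𝒩(J), Commute y a → Commute y b → ∃ f : G, (f = 1 ∨ f = a ∨ f = b ∨ f = a * b) ∧ f * y ∈ 𝒞(J)

def TyA2 (J : Subgroup G) : Prop := ∀ U, IsSylowIn 2 U J → ∀ y ∈ 𝒩(J), y * y = 1 →
  (∀ a ∈ U, a * a = 1 → Commute y a) → y ∈ J ⊔ 𝒞(J)

/-- the facts `NA` for a simple subgroup `J` of `G` -/
structure Nice0 (J : Subgroup G) : Prop where
  one : ∀ a ∈ J, ∀ b ∈ J, Inv a → Inv b → ∃ g ∈ J, g * a * g⁻¹ = b
  four : Four J
  cyc : ∀ D : Subgroup G, IsPGroup 2 D → D ≤ 𝒩(J) → ∃ w ∈ D, ∀ s ∈ D, ∃ i : ℤ, (w ^ i)⁻¹ * s ∈ J ⊔ 𝒞(J)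
  ch2 : ∀ y ∈ 𝒩(J), y * y = 1 → IsCharP 2 (J ⊓ Ce y) → y ∈ J ⊔ 𝒞(J)
  ty : (TyA J ∧ TyA2 J) ∨ TyB J

/-- `Nice0`, and the 2-rank of `Aut J` is that of `J` -/
structure Nice (J : Subgroup G) : Prop extends Nice0 J where
  m2 : ∃ W ≤ J, IsElementaryAbelian 2 W ∧ ∀ E ≤ 𝒩(J), IsElementaryAbelian 2 E → E ⊓ 𝒞(J) = ⊥ →
    Nat.card E ≤ Nat.card W

/-- an involution of `X` has a centraliser of characteristic 2 or is far from 2-central -/
def EV (X : Subgroup G) : Prop := ∀ r ∈ X, Inv r → IsCharP 2 (X ⊓ Ce r) ∨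
  ∀ D : Subgroup G, IsPGroup 2 D → D ≤ X ⊓ Ce r → 4 * Nat.card D ∣ Nat.card X

/-- the normalised situation of the core lemma -/
structure Co (X J : Subgroup G) (z : G) : Prop where
  sX : IsSimpleGroup X
  nX : ¬ IsMulCommutative X
  ev : EV X
  zz : z * z = 1
  zn : z ∈ 𝒩(X)
  zc : z ∉ 𝒞(X)
  le : J ≤ X ⊓ Ce z
  nJ : X ⊓ Ce z ≤ 𝒩(J)
  cJ : X ⊓ Ce z ⊓ 𝒞(J) = ⊥
  nice : Nice J
  idx : ∀ U S : Subgroup G, IsSylowIn 2 U (X ⊓ Ce z) → IsSylowIn 2 S X → Nat.card S ≤ 2 * Nat.card U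
  c2 : ∀ a ∈ J, Inv a → IsCharP 2 (X ⊓ Ce a)
  inJ : ∀ r ∈ X ⊓ Ce z, Inv r → IsCharP 2 (X ⊓ Ce r) → r ∈ J

/-- the facts about the quasisimple subgroup `L` -/
structure NQ (L : Subgroup G) : Prop where
  qs : IsQuasisimple L
  z2 : IsPGroup 2 (L ⊓ 𝒞(L) : Subgroup G)
  cl : QT.CycList (L ⧸ center L)
  na : NA (L ⧸ center L)
  four : Four L
  out : ⁅𝒩(L), 𝒩(L)⁆ ≤ L ⊔ 𝒞(L)
  cov : L ⊓ 𝒞(L) ≠ ⊥ → ∀ S, IsSylowIn 2 S L → ∀ y ∈ 𝒩(L), y * y = 1 → y ∈ 𝒞(S) → y ∈ 𝒞(L)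

/-- the global hypotheses -/
structure Gl (G : Type*) [Group G] : Prop where
  qt : IsQuasithin G
  odd : ∀ t : G, Inv t → oddCore (Ce t) = ⊥
  lk : ∀ t : G, Inv t → ∀ K : Subgroup G, IsCompIn K (Ce t) → IsPGroup 2 (center K) ∧ LK (K ⧸ center K)

/-- the configuration: two components of `C(z)` interchanged by the Sylow 2-subgroup `T` -/
structure Cf (T L₁ L₂ : Subgroup G) (z u : G) : Prop where
  gl : Gl G
  syl : IsSylowIn 2 T ⊤
  zT : z ∈ T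
  zc : z ∈ 𝒞(T)
  iz : Inv z
  c1 : IsCompIn L₁ (Ce z)
  c2 : IsCompIn L₂ (Ce z)
  ne : L₁ ≠ L₂
  uT : u ∈ T
  e1 : cj u L₁ = L₂
  e2 : cj u L₂ = L₁
  pair : ∀ t ∈ T, t ∈ 𝒩(L₁) ∨ u * t ∈ 𝒩(L₁)
  nn : T ⊓ 𝒩(L₁) = T ⊓ 𝒩(L₂)
  q1 : NQ L₁
  q2 : NQ L₂

/-- `e` is an involution and `L` is a component of its centraliser -/
def Yy (L : Subgroup G) (e : G) : Prop := Inv e ∧ IsCompIn L (Ce e)

/-- the configuration together with the index lemma -/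
structure Cf1 (T L₁ L₂ : Subgroup G) (z u : G) : Prop extends Cf T L₁ L₂ z u where
  i1 : ∀ t : G, Inv t → t ∈ 𝒞(T ⊓ 𝒩(L₁)) → t ∈ 𝒞(L₁) → Yy L₁ t
  i2 : ∀ t : G, Inv t → t ∈ 𝒞(T ⊓ 𝒩(L₁)) → t ∈ 𝒞(L₂) → Yy L₂ t

/-- the configuration with all derived facts -/
structure Cf2 (T L₁ L₂ : Subgroup G) (z u : G) : Prop extends Cf1 T L₁ L₂ z u where
  n12 : 𝒩(L₁) = 𝒩(L₂)
  s0 : IsSylowIn 2 (T ⊓ 𝒩(L₁)) 𝒩(L₁)
  pf : ∀ g : G, cj g L₁ ≤ 𝒩(L₁) → cj g L₁ ≤ L₁ ⊔ L₂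
  ce : ∀ e, Yy L₁ e ∨ Yy L₂ e → ∀ c : G, Commute c e → c ∈ 𝒩(L₁) ∨ u * c ∈ 𝒩(L₁)

theorem Cf.symm {T L₁ L₂ : Subgroup G} {z u : G} (h : Cf T L₁ L₂ z u) : Cf T L₂ L₁ z u where
  gl := h.gl
  syl := h.syl
  zT := h.zT
  zc := h.zc
  iz := h.iz
  c1 := h.c2
  c2 := h.c1
  ne := h.ne.symm
  uT := h.uT
  e1 := h.e2
  e2 := h.e1
  pair t ht := (h.pair t ht).imp (fun a => (h.nn.le ⟨ht, a⟩).2) fun a => (h.nn.le ⟨mul_mem h.uT ht, a⟩).2
  nn := h.nn.symm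
  q1 := h.q2
  q2 := h.q1

theorem Cf1.symm {T L₁ L₂ : Subgroup G} {z u : G} (h : Cf1 T L₁ L₂ z u) : Cf1 T L₂ L₁ z u where
  toCf := h.toCf.symm
  i1 t it hc := h.i2 t it (h.nn ▸ hc)
  i2 t it hc := h.i1 t it (h.nn ▸ hc)

theorem Cf2.symm {T L₁ L₂ : Subgroup G} {z u : G} (h : Cf2 T L₁ L₂ z u) : Cf2 T L₂ L₁ z u where
  toCf1 := h.toCf1.symm
  n12 := h.n12.symm
  s0 := h.n12 ▸ h.s0
  pf g hg := by
    rw [← h.e1, ← cj_mul, h.e1, sup_comm]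
    refine h.pf _ ?_
    rwa [cj_mul, h.e1, h.n12]
  ce e he c hc := h.n12 ▸ h.ce e he.symm c hc

end amb

/-! ### The steps -/

/-- `NA` of a centre-free subgroup gives `Nice0` -/
def Trans : Prop := ∀ (G : Type u) [Group G] [Finite G] (J : Subgroup G), J ⊓ 𝒞(J) = ⊥ → NA J → Nice0 J
def M2 : Prop := ∀ (G : Type u) [Group G] [Finite G] (J : Subgroup G), J ⊓ 𝒞(J) = ⊥ → Nice0 J → Nice J
/-- the form in which `Nice` is used -/
def NiceOf : Prop := ∀ (G : Type u) [Group G] [Finite G] (J : Subgroup G), J ⊓ 𝒞(J) = ⊥ → NA J → Nice J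

/-- in a proper 2-cover the centre of a Sylow 2-subgroup is central -/
def CovS : Prop := ∀ (L : Type u) [Group L] [Finite L], IsQuasisimple L → IsPGroup 2 (center L) → center L ≠ ⊥ →
  NA (L ⧸ center L) → ∀ S : Subgroup L, IsSylowIn 2 S ⊤ → S ⊓ 𝒞(S) ≤ center L
def CovS1 : Prop := ∀ (L : Type u) [Group L] [Finite L], IsQuasisimple L → IsPGroup 2 (center L) → center L ≠ ⊥ →
  NA (L ⧸ center L) → ∀ S : Subgroup L, IsSylowIn 2 S ⊤ → SzSyl (S.map (QuotientGroup.mk' (center L))) →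
  S ⊓ 𝒞(S) ≤ center L
def CovS2 : Prop := ∀ (L : Type u) [Group L] [Finite L], IsQuasisimple L → IsPGroup 2 (center L) → center L ≠ ⊥ →
  NA (L ⧸ center L) → ∀ S : Subgroup L, IsSylowIn 2 S ⊤ → EDSyl (S.map (QuotientGroup.mk' (center L))) →
  S ⊓ 𝒞(S) ≤ center L

def CovT : Prop := ∀ (G : Type u) [Group G] [Finite G] (L : Subgroup G), IsQuasisimple L →
  IsPGroup 2 (center L) → QT.CycList (L ⧸ center L) → NA (L ⧸ center L) → Four L → NQ L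

def FourL : Prop := ∀ (L : Type u) [Group L] [Finite L], IsQuasisimple L → IsPGroup 2 (center L) →
  IsQTEvenTypeComponent L → PRankLE 3 1 (L ⧸ center L) → Four (⊤ : Subgroup L)

/-- normalisers of self-centralising four-groups -/
def B3 : Prop := ∀ (G : Type u) [Group G] [Finite G] (J : Subgroup G), Nice J → TyB J → J ⊓ 𝒞(J) = ⊥ →
  ∀ a ∈ J, ∀ b ∈ J, Inv a → Inv b → a ≠ b → Commute a b →
    ∃ r ∈ J, r * a * r⁻¹ = b ∧ r * b * r⁻¹ = a * b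

def Core : Prop := ∀ (G : Type u) [Group G] [Finite G] (X J S D : Subgroup G) (z : G), IsSimpleGroup X →
  ¬ IsMulCommutative X → EV X → z * z = 1 → z ∈ 𝒩(X) → z ∉ 𝒞(X) → IsCompIn J (X ⊓ Ce z) →
  (J ⊓ 𝒞(J) = ⊥ → Nice J) → IsSylowIn 2 S X → D ≤ S ⊓ Ce z → D ≤ 𝒩(J) → Nat.card S ≤ 2 * Nat.card D → False

def Core0 : Prop := ∀ (G : Type u) [Group G] [Finite G] (X J S D : Subgroup G) (z : G), IsSimpleGroup X →
  ¬ IsMulCommutative X → EV X → z * z = 1 → z ∈ 𝒩(X) → z ∉ 𝒞(X) → IsCompIn J (X ⊓ Ce z) →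
  (J ⊓ 𝒞(J) = ⊥ → Nice J) → IsSylowIn 2 S X → D ≤ S ⊓ Ce z → D ≤ 𝒩(J) → Nat.card S ≤ 2 * Nat.card D → Co X J z

def Core1 : Prop := ∀ (G : Type u) [Group G] [Finite G] (X J : Subgroup G) (z : G), Co X J z →
  ∃ a ∈ J, Inv a ∧ ∃ g ∈ X, g * z * g⁻¹ = z * a

def CoreA : Prop := ∀ (G : Type u) [Group G] [Finite G] (X J : Subgroup G) (z : G), Co X J z → TyA J →
  ∀ a ∈ J, Inv a → ∀ g ∈ X, g * z * g⁻¹ ≠ z * a

def CoreB : Prop := ∀ (G : Type u) [Group G] [Finite G] (X J : Subgroup G) (z : G), Co X J z → TyB J →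
  ∀ a ∈ J, Inv a → ∀ g ∈ X, g * z * g⁻¹ ≠ z * a

/-- the core lemma for a quasisimple `K` -/
def CoreQ : Prop := ∀ (G : Type u) [Group G] [Finite G] (K J S D : Subgroup G) (z : G), IsQuasisimple K →
  IsPGroup 2 (center K) → LK (K ⧸ center K) → z * z = 1 → z ∈ 𝒩(K) → IsCompIn J (K ⊓ Ce z) →
  NA (J ⧸ center J) → IsSylowIn 2 S K → D ≤ S ⊓ Ce z → D ≤ 𝒩(J) → Nat.card S ≤ 2 * Nat.card D → J = K

/-- pump-ups -/
def PU : Prop := ∀ (G : Type u) [Group G] [Finite G] (J : Subgroup G) (z t : G), Inv t → oddCore (Ce t) = ⊥ →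
  z * z = 1 → Commute z t → IsCompIn J (Ce z) → J ≤ Ce t →
    ∃ K, IsCompIn K (Ce t) ∧ ((J ≤ K ∧ z ∈ 𝒩(K)) ∨ (cj z K ≠ K ∧ J = diagSub K z))

def Idx : Prop := ∀ (G : Type u) [Group G] [Finite G] (T L₁ L₂ : Subgroup G) (z u : G), Cf T L₁ L₂ z u →
  ∀ t : G, Inv t → t ∈ 𝒞(T ⊓ 𝒩(L₁)) → t ∈ 𝒞(L₁) → Yy L₁ t

/-- three pairwise commuting conjugates of a perfect group of even order -/
def Rk3 : Prop := ∀ (G : Type u) [Group G] [Finite G], IsQuasithin G → ∀ L : Subgroup G, IsQuasisimple L →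
  IsPGroup 2 (L ⊓ 𝒞(L) : Subgroup G) → ∃ r : ℕ, r.Prime ∧ r ≠ 2 ∧ r ∣ Nat.card L ∧
    ∀ (g x : G), cj g L ≤ 𝒞(L) → x ∈ 𝒞(L) → x ∈ 𝒞(cj g L) → x ^ r = 1 → x = 1

def NN : Prop := ∀ (G : Type u) [Group G] [Finite G] (T L₁ L₂ : Subgroup G) (z u : G), Cf1 T L₁ L₂ z u →
  Cf2 T L₁ L₂ z u

def PR : Prop := ∀ (G : Type u) [Group G] [Finite G] (T L₁ L₂ : Subgroup G) (z u : G), Cf2 T L₁ L₂ z u →
  ∀ K : Subgroup G, L₁ ≤ K → ¬ L₂ ≤ K → ∀ g ∈ 𝒩(K), g ∉ 𝒩(L₁) → ∀ e, Yy L₁ e ∨ Yy L₂ e → g * e * g⁻¹ ∉ 𝒞(L₁)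

def Dg : Prop := ∀ (G : Type u) [Group G] [Finite G] (T L₁ L₂ : Subgroup G) (z u : G), Cf1 T L₁ L₂ z u →
  ∀ y ∈ T ⊓ 𝒩(L₁), ∀ K, IsCompIn K (Ce y) → cj z K ≠ K → L₁ ≠ diagSub K z

def Three : Prop := ∀ (G : Type u) [Group G] [Finite G] (T L₁ L₂ : Subgroup G) (z u : G), Cf2 T L₁ L₂ z u →
  ∀ y ∈ T, Inv y → y ∈ 𝒞(L₁) → IsSylowIn 2 (T ⊓ 𝒩(L₁) ⊓ Ce y) (𝒩(L₁) ⊓ Ce y) →
    ∀ K, IsCompIn K (Ce y) → L₁ ≤ K → ¬ L₂ ≤ K → L₁ = K

def Four4 : Prop := ∀ (G : Type u) [Group G] [Finite G] (T L₁ L₂ : Subgroup G) (z u : G), Cf2 T L₁ L₂ z u →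
  ∀ y : G, Inv y → ∀ K, IsCompIn K (Ce y) → L₁ ≤ K → ¬ L₂ ≤ K

/-- two conjugate components of `C(z)`: no third one, and odd ranks at most one -/
def Rk1 : Prop := ∀ (G : Type u) [Group G] [Finite G], IsQuasithin G → ∀ (L : Subgroup G) (z c : G), Inv z →
  IsCompIn L (Ce z) → IsPGroup 2 (center L) → Commute c z → cj c L ≠ L →
  (∀ p : ℕ, p.Prime → p ≠ 2 → PRankLE p 1 (L ⧸ center L)) ∧ ∀ d : G, Commute d z → cj d L = L ∨ cj d L = cj c L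

/-- the global hypotheses hold, and components of involution centralisers are on the list -/
def SetGl : Prop := ∀ (G : Type u) [Group G] [Finite G], IsQuasithin G → IsOfQTEvenType G →
  Gl G ∧ ∀ t : G, Inv t → ∀ K : Subgroup G, IsCompIn K (Ce t) → IsQTEvenTypeComponent K

/-- the configuration exists -/
def Setup : Prop := ∀ (G : Type u) [Group G] [Finite G] [IsSimpleGroup G], ¬ IsMulCommutative G → IsQuasithin G →
  IsKProper G → IsOfQTEvenType G → ∀ (T : Sylow 2 G) (z : G), z ∈ (T : Subgroup G) →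
  (∀ t ∈ (T : Subgroup G), t * z = z * t) → orderOf z = 2 → ∀ L : Subgroup (centralizer ({z} : Set G)),
  IsComponent L → ¬ L.Normal → ∃ (L₂ : Subgroup G) (u : G),
    Cf (T : Subgroup G) (L.map (centralizer ({z} : Set G)).subtype) L₂ z u

end CL.Q16
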