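/-
Project Q16: normalisers of self-centralising four-groups induce a 3-cycle.
-/
import Cfsg.Agent.Q16.Defs
import Cfsg.Agent.Ags.INN
import Cfsg.Agent.Cls.SL2Quat

set_option autoImplicit false

namespace CL.Q16

open Cfsg Subgroup CL.Even CL.Grp CL.Loc CL.Ags

universe u

namespace B3a

variable {G : Type*} [Group G]

theorem inv_mul {a b : G} (ia : Ags.Inv a) (ib : Ags.Inv b) (ne : a ≠ b) (c : Commute a b) : Ags.Inv (a * b) :=
  ⟨by rw [mul_assoc, ← mul_assoc b, ← c.eq, mul_assoc, ib.1, mul_one, ia.1], fun e => ne (by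
    rw [← mul_one a, ← e, ← mul_assoc, ia.1, one_mul])⟩

theorem step [Finite G] {J : Subgroup G} (hn : Nice J) (hb : TyB J) (hc : J ⊓ 𝒞(J) = ⊥) {a b : G} (ha : a ∈ J)
    (hbJ : b ∈ J) (ia : Ags.Inv a) (ib : Ags.Inv b) (ne : a ≠ b) (c : Commute a b) :
    ∃ n ∈ J, n * a * n⁻¹ = b ∧ (n * b * n⁻¹ = a ∨ n * b * n⁻¹ = a * b) := by
  have : Fact (Nat.Prime 2) := ⟨Nat.prime_two⟩
  have cp : CL.SL2.CPair a b := ⟨ia.1, ib.1, c.eq.symm, ia.2, ib.2, ne⟩
  have iab := inv_mul ia ib ne c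
  set F : Subgroup G := closure {a, b} with hF
  have mem : ∀ z, z ∈ F ↔ z = 1 ∨ z = a ∨ z = b ∨ z = a * b := fun z => cp.mem_closure
  have haF : a ∈ F := (mem a).2 (Or.inr (Or.inl rfl))
  have hbF : b ∈ F := (mem b).2 (Or.inr (Or.inr (Or.inl rfl)))
  have hFJ : F ≤ J := (closure_le J).2 (by rintro _ (rfl | rfl); exacts [ha, hbJ])
  have hsq : ∀ z ∈ F, z * z = 1 := fun z hz => by
    rcases (mem z).1 hz with rfl | rfl | rfl | rfl
    exacts [one_mul _, ia.1, ib.1, iab.1]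
  have hF2 : IsPGroup 2 F := isP_of_two fun z hz => two_of_sq (hsq z hz)
  have hcm : ∀ x ∈ F, ∀ y ∈ F, x * y = y * x := fun x hx y hy => by
    have := hsq _ (F.mul_mem hx hy)
    rw [← inv_eq_of_mul_eq_one_right this, mul_inv_rev, inv_eq_of_mul_eq_one_right (hsq x hx),
      inv_eq_of_mul_eq_one_right (hsq y hy)]
  have inj : ∀ n x y : G, n * x * n⁻¹ = n * y * n⁻¹ → x = y := fun n x y h =>
    mul_left_cancel (mul_right_cancel h)
  by_cases hS : IsSylowIn 2 F J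
  · obtain ⟨g, hg, e⟩ := hn.one a ha b hbJ ia ib
    obtain ⟨n, hn1, e1⟩ := Inn.fusion hS (V := F) (fun x => ⟨fun h => ⟨h, hsq x h⟩, fun h => h.1⟩) hcm haF hg
      (e ▸ hbF)
    rw [e] at e1
    refine ⟨n, hn1.1, e1, ?_⟩
    rcases (mem _).1 ((mem_normalizer_iff.1 hn1.2 b).1 hbF) with h | h | h | h
    · exact absurd h (ib.conj n).2
    · exact Or.inl h
    · exact absurd (inj n _ _ (e1.trans h.symm)) ne
    · exact Or.inr h
  have hFC : F ≤ J ⊓ Ce (a * b) := fun x hx =>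
    ⟨hFJ hx, mem_centralizer_singleton_iff.2 (hcm x hx _ (F.mul_mem haF hbF))⟩
  obtain ⟨T, hT, hFT⟩ := exists_isSylowIn_ge hF2 hFC
  have hlt : F < T := by
    refine lt_of_le_of_ne hFT fun e => hS ?_
    obtain ⟨R, hR, hFR⟩ := exists_isSylowIn_ge hF2 hFJ
    obtain ⟨r, hr, ir, hrc⟩ := exists_inv_cent hR.isPGroup le_normalizer (hFR haF) ia
    obtain ⟨g, hg, e1⟩ := hn.one r (hR.le hr) _ (J.mul_mem ha hbJ) ir iab
    have h1 : cj g R ≤ J ⊓ Ce (a * b) := le_inf (cj_le_of_mem hR.le hg) fun x hx => by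
      rw [← e1]
      exact mem_centralizer_singleton_iff.2 (cm_of (mem_cent_conj g hrc) hx).eq.symm
    refine hR.of_card_le hF2 hFJ ?_
    rw [e, ← card_cj g R]
    exact hT.card_le (IsPGroup.conj_smul hR.isPGroup g) h1
  obtain ⟨n, hn1, hn2⟩ := SetLike.exists_of_lt (lt_inf_normalizer_of_isPGroup hT.isPGroup hlt)
  have hnJ := (hT.le hn1.1).1
  have e0 : n * (a * b) * n⁻¹ = a * b :=
    mul_inv_eq_iff_eq_mul.2 (mem_centralizer_singleton_iff.1 (hT.le hn1.1).2)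
  have e1 : n * b * n⁻¹ = n * a * n⁻¹ * (a * b) := by
    rw [← e0]
    calc n * b * n⁻¹ = n * (a * a) * b * n⁻¹ := by rw [ia.1, mul_one]
      _ = _ := by group
  rcases (mem _).1 ((mem_normalizer_iff.1 hn1.2 a).1 haF) with h | h | h | h
  · exact absurd h (ia.conj n).2
  · rw [h, ← mul_assoc, ia.1, one_mul] at e1
    obtain ⟨f, hf, hfc⟩ := hb a ha b hbJ ia ib ne c n (le_normalizer hnJ) (mul_inv_eq_iff_eq_mul.1 h)
      (mul_inv_eq_iff_eq_mul.1 e1)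
    have hfF := (mem f).2 hf
    have h2 : f * n = 1 := hc.le (show f * n ∈ _ from ⟨J.mul_mem (hFJ hfF) hnJ, hfc⟩)
    exact absurd (by rw [eq_inv_of_mul_eq_one_right h2]; exact F.inv_mem hfF) hn2
  · refine ⟨n, hnJ, h, Or.inl ?_⟩
    rw [e1, h, c.eq, ← mul_assoc, ib.1, one_mul]
  · have := inj n _ _ (h.trans e0.symm)
    exact absurd (left_eq_mul.1 this) ib.2

end B3a

theorem b3 : B3.{u} := by
  intro G _ _ J hn hb hc a ha b hbJ ia ib ne c
  obtain ⟨n, hn1, e1, e2 | e2⟩ := B3a.step hn hb hc ha hbJ ia ib ne c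
  swap
  · exact ⟨n, hn1, e1, e2⟩
  obtain ⟨m, hm, f1, f2⟩ := B3a.step hn hb hc ha (J.mul_mem ha hbJ) ia (B3a.inv_mul ia ib ne c)
    (fun e => ib.2 (left_eq_mul.1 e)) ((Commute.refl a).mul_right c)
  have f3 : m * b * m⁻¹ = a * b * (m * (a * b) * m⁻¹) := by
    rw [← f1]
    calc m * b * m⁻¹ = m * (a * a) * b * m⁻¹ := by rw [ia.1, mul_one]
      _ = m * a * m⁻¹ * (m * (a * b) * m⁻¹) := by group
      _ = _ := by rw [f1]
  have k : ∀ x y z : G, x * y * z * (x * y)⁻¹ = x * (y * z * y⁻¹) * x⁻¹ := fun x y z => by group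
  rcases f2 with f2 | f2
  · rw [f2, c.eq, mul_assoc b a a, ia.1, mul_one] at f3
    exact ⟨m * n, J.mul_mem hm hn1, by rw [k, e1, f3], by rw [k, e2, f1]⟩
  · rw [← mul_assoc a a b, ia.1, one_mul] at f2
    rw [f2, mul_assoc a b b, ib.1, mul_one] at f3
    exact ⟨m * m, J.mul_mem hm hm, by rw [k, f1, f2], by rw [k, f3, f1]⟩

end CL.Q16
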