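/-
Project Q16 (S1848): `NA` is invariant under isomorphism.
-/
import Cfsg.Agent.Q16.Defs
import Cfsg.Agent.Even.ParChar

set_option autoImplicit false

namespace CL.Q16

open Cfsg Subgroup CL.Even CL.Grp CL.Loc CL.Ags
open scoped commutatorElement

universe u

namespace Congh

variable {K : Type*} {K' : Type*} [Group K] [Group K'] (e : K ≃* K')

theorem inv_map {a : K} (h : Ags.Inv a) : Ags.Inv (e a) :=
  ⟨by rw [← map_mul, h.1, map_one], fun h' => h.2 (e.map_eq_one_iff.1 h')⟩

theorem congr_apply (α : MulAut K) (x : K) : MulAut.congr e α (e x) = e (α x) := by simp [MulAut.congr]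

theorem congr_conj (k : K) : MulAut.congr e (MulAut.conj k) = MulAut.conj (e k) := by
  ext x; simp [MulAut.congr]

theorem inner {α : MulAut K} {k : K} (h : MulAut.congr e α = MulAut.conj (e k)) : α = MulAut.conj k :=
  (MulAut.congr e).injective (h.trans (congr_conj e k).symm)

theorem syl_map {U : Subgroup K} (h : IsSylowIn 2 U ⊤) : IsSylowIn 2 (U.map (e : K →* K')) ⊤ :=
  ⟨le_top, h.2.1.map _, by
    have := h.2.2
    rwa [relIndex_top_right, ← index_map_equiv U e, ← relIndex_top_right] at this⟩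

theorem mm {U : Subgroup K} {a : K} (h : a ∈ U) : e a ∈ U.map (e : K →* K') := mem_map_of_mem (e : K →* K') h

theorem sq_map {a : K} (h : a * a = 1) : e a * e a = 1 := by rw [← map_mul, h, map_one]

theorem om_map (U : Subgroup K) : Om (U.map (e : K →* K')) = (Om U).map (e : K →* K') := by
  rw [Om, Om, MonoidHom.map_closure]
  congr 1
  ext x
  constructor
  · rintro ⟨⟨a, ha, rfl⟩, h⟩
    exact ⟨a, ⟨ha, e.injective (by rw [map_mul, map_one]; exact h)⟩, rfl⟩
  · rintro ⟨a, ⟨ha, h⟩, rfl⟩
    exact ⟨mm e ha, sq_map e h⟩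

theorem sz {U : Subgroup K} (h : SzSyl (U.map (e : K →* K'))) : SzSyl U := by
  obtain ⟨h1, h2, h3, h4, h5⟩ := h
  refine ⟨fun a ha h => mc_iff.2 fun y hy => ?_, fun s hs => ?_, fun s hs t ht => ?_, fun s hs t ht h => ?_, ?_⟩
  · exact e.injective (by simpa using (cm_of (h1 _ (mm e ha) (sq_map e h)) (mm e hy)).eq)
  · exact e.injective (by simpa using h2 _ (mm e hs))
  · exact e.injective (by simpa [map_commutatorElement] using h3 _ (mm e hs) _ (mm e ht))
  · exact e.injective (by simpa using h4 _ (mm e hs) _ (mm e ht) (by rw [← map_mul, h, map_mul]))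
  · rwa [om_map, card_map_of_injective e.injective, card_map_of_injective e.injective] at h5

theorem ed {U : Subgroup K} (h : EDSyl (U.map (e : K →* K'))) : EDSyl U := by
  rcases h with h | ⟨b, c, hb, hc, h⟩
  · exact .inl fun s hs => e.injective (by simpa using h _ (mm e hs))
  · refine .inr ⟨e.symm b, e.symm c, sq_map e.symm hb, sq_map e.symm hc, map_injective (f := (e : K →* K')) e.injective ?_⟩
    rw [h, MonoidHom.map_closure, Set.image_pair]
    simp

theorem fix_map (α : MulAut K) : (fixA α).map (e : K →* K') = fixA (MulAut.congr e α) := by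
  ext x
  obtain ⟨x, rfl⟩ := e.surjective x
  rw [mem_fixA, congr_apply, e.injective.eq_iff]
  exact mem_map_iff_mem (f := (e : K →* K')) e.injective

include e in
theorem congr (h : NA K') : NA K where
  one a b ha hb := by simpa using (e.symm : K' →* K).map_isConj (h.one _ _ (inv_map e ha) (inv_map e hb))
  four := by
    obtain ⟨a, -, b, -, ha, hb, n, c⟩ := h.four
    exact ⟨_, mem_top _, _, mem_top _, inv_map e.symm ha, inv_map e.symm hb, e.symm.injective.ne n, c.map e.symm⟩
  cyc D hD := by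
    obtain ⟨_, ⟨w, hw, rfl⟩, h1⟩ := h.cyc _ (hD.map (MulAut.congr e : MulAut K →* MulAut K'))
    refine ⟨w, hw, fun s hs => ?_⟩
    obtain ⟨i, k, e1⟩ := h1 _ (mem_map_of_mem _ hs)
    obtain ⟨k, rfl⟩ := e.surjective k
    exact ⟨i, k, inner e (by rw [map_mul, map_inv, map_zpow]; exact e1)⟩
  ch2 α h1 h2 := by
    haveI : Fact (Nat.Prime 2) := ⟨Nat.prime_two⟩
    obtain ⟨k, e1⟩ := h.ch2 (MulAut.congr e α) (by rw [← map_mul, h1, map_one])
      (fix_map e α ▸ (isCharP_map_iff e.injective).2 h2)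
    obtain ⟨k, rfl⟩ := e.surjective k
    exact ⟨k, inner e e1⟩
  ty := by
    refine h.ty.imp (fun h U hU => ?_) fun h a b ha hb n c α e1 e2 => ?_
    · obtain ⟨h1, h2⟩ := h _ (syl_map e hU)
      refine ⟨fun a ha b hb h3 h4 => e.injective (by
        simpa using (h1 _ (mm e ha) _ (mm e hb) (sq_map e h3) (sq_map e h4)).eq), fun α h3 h4 => ?_⟩
      obtain ⟨k, e1⟩ := h2 (MulAut.congr e α) (by rw [← map_mul, h3, map_one]) (by
        rintro _ ⟨a, ha, rfl⟩ h5
        change MulAut.congr e α (e a) = e a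
        rw [congr_apply, h4 a ha (e.injective (by rw [map_mul, map_one]; exact h5))])
      obtain ⟨k, rfl⟩ := e.surjective k
      exact ⟨k, inner e e1⟩
    · obtain ⟨f, hf, e3⟩ := h _ _ (inv_map e ha) (inv_map e hb) (e.injective.ne n) (c.map e) (MulAut.congr e α)
        (by rw [congr_apply, e1]) (by rw [congr_apply, e2])
      obtain ⟨f, rfl⟩ := e.surjective f
      refine ⟨f, ?_, inner e e3⟩
      simpa only [← map_mul, e.injective.eq_iff, e.map_eq_one_iff] using hf
  sh U hU := (h.sh _ (syl_map e hU)).imp (sz e) (ed e)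

end Congh

theorem naCongr : NACongr.{u} := fun _ _ _ _ _ ⟨e⟩ h => Congh.congr e h

theorem naCongr' : NACongr'.{u} := fun _ _ _ _ _ ⟨e⟩ h => Congh.congr e h

end CL.Q16
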