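/-
Project Q16: the normalised situation of the core lemma.
-/
import Cfsg.Agent.Q16.Defs
import Cfsg.Agent.Odd.FT

set_option autoImplicit false

namespace CL.Q16

open Cfsg Subgroup CL.Even CL.Grp CL.Loc CL.Ags

universe u

namespace Core0

variable {G : Type*} [Group G]

theorem mem_Ce {x y : G} : y ∈ Ce x ↔ Commute y x := mem_centralizer_singleton_iff

theorem cent_zp (z : G) : 𝒞(zpowers z) = Ce z := by
  ext y
  rw [mc_iff, mem_Ce]
  exact ⟨fun h => h z (mem_zpowers z), fun h w ⟨n, hn⟩ => hn ▸ h.zpow_right n⟩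

theorem cj_Ce (g x : G) : cj g (Ce x) = Ce (g * x * g⁻¹) := by
  ext y
  rw [mem_cj, mem_Ce, mem_Ce]
  constructor
  · intro h
    have := h.eq
    show y * (g * x * g⁻¹) = g * x * g⁻¹ * y
    calc y * (g * x * g⁻¹) = g * (g⁻¹ * y * g * x) * g⁻¹ := by group
      _ = g * (x * (g⁻¹ * y * g)) * g⁻¹ := by rw [this]
      _ = _ := by group
  · intro h
    have := h.eq
    show g⁻¹ * y * g * x = x * (g⁻¹ * y * g)
    calc g⁻¹ * y * g * x = g⁻¹ * (y * (g * x * g⁻¹)) * g := by group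
      _ = g⁻¹ * (g * x * g⁻¹ * y) * g := by rw [this]
      _ = _ := by group

theorem norm_Ce {g x : G} (h : Commute g x) : g ∈ 𝒩(Ce x) := by
  rw [← cj_eq_iff_mem, cj_Ce, h.eq, mul_inv_cancel_right]

variable [Finite G]

/-- centraliser of an involution normalising a group of characteristic 2 -/
theorem cz {H : Subgroup G} {z : G} (h : IsCharP 2 H) (zz : z * z = 1) (zn : z ∈ 𝒩(H)) :
    IsCharP 2 (H ⊓ Ce z) := by
  have hz : IsPGroup 2 (zpowers z) := (two_of_sq zz).isP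
  have hn : zpowers z ≤ 𝒩(H) := zpowers_le.2 zn
  have hN : zpowers z ⊔ H ≤ 𝒩(H) := sup_le hn le_normalizer
  have h1 : IsCharP 2 (zpowers z ⊔ H) :=
    h.of_res_le (SubnIn.of_le_normalizer le_sup_right hN) (res_sup_le_of_isPGroup hz hn)
  have h2 := h1.cent hz le_sup_left
  rw [cent_zp] at h2
  exact h2.of_normal (inf_le_inf_right _ le_sup_right)
    (le_norm_inf (inf_le_left.trans hN) (inf_le_right.trans le_normalizer))

theorem not_charP {J : Subgroup G} (q : IsQuasisimple J) : ¬ IsCharP 2 J := by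
  intro h
  have hle : J ≤ pCoreOf 2 J := by
    rcases IsQuasisimple.eq_or_commutator_eq_bot q (core_le (p := 2) J) (self_le_norm_core J) with e | e
    · exact e.ge
    · exact h.le_core le_rfl (commutator_eq_bot_iff'.1 e)
  have hP : IsPGroup 2 J := (core_isP J).to_le hle
  have := hP.isNilpotent
  exact IsQuasisimple.not_isSolvable q inferInstance

theorem exists_inv_qs {G : Type u} [Group G] [Finite G] {J : Subgroup G} (q : IsQuasisimple J) :
    ∃ a ∈ J, Ags.Inv a := by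
  by_cases h : 2 ∣ Nat.card J
  · obtain ⟨x, hx⟩ := exists_prime_orderOf_dvd_card' 2 h
    exact ⟨x, x.2, inv_iff.2 (by rw [Subgroup.orderOf_coe]; exact hx)⟩
  · exact absurd (CL.Odd.feit_thompson (Nat.odd_iff.2 (by omega))) (IsQuasisimple.not_isSolvable q)

theorem big {X S D : Subgroup G} (ev : EV X) (hS : IsSylowIn 2 S X) (hD : D ≤ S)
    (hc : Nat.card S ≤ 2 * Nat.card D) {r : G} (hr : r ∈ X) (ir : Ags.Inv r) (c : r ∈ 𝒞(D)) :
    IsCharP 2 (X ⊓ Ce r) := by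
  refine (ev r hr ir).resolve_right fun h => ?_
  have hP : IsPGroup 2 D := hS.isPGroup.to_le hD
  have hd := h D hP (le_inf (hD.trans hS.le) fun d hd => mem_Ce.2 (cm_of c hd).symm)
  obtain ⟨k, hk⟩ := IsPGroup.iff_card.1 hP
  have e : 4 * Nat.card D = 2 ^ (k + 2) := by rw [hk]; ring
  rw [e, Nat.prime_two.pow_dvd_iff_le_factorization Nat.card_pos.ne'] at hd
  have h2 : 2 ^ (k + 2) ≤ Nat.card S := by
    rw [hS.card_eq_pow]; exact Nat.pow_le_pow_right (by norm_num) hd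
  have h3 : 0 < Nat.card D := Nat.card_pos
  omega

end Core0

open Core0 in
theorem core0 : Core0.{u} := by
  intro G _ _ X J S D z sX nX ev zz zn zc hJ nice hS hD hDJ hc
  have q : IsQuasisimple J := hJ.2
  have hJY : J ≤ X ⊓ Ce z := hJ.le
  have hDS : D ≤ S := hD.trans inf_le_left
  have hDY : D ≤ X ⊓ Ce z := le_inf (hDS.trans hS.le) (hD.trans inf_le_right)
  have hP : IsPGroup 2 D := hS.isPGroup.to_le hDS
  -- passing from `X` to `Y`
  have toY : ∀ r ∈ X ⊓ Ce z, IsCharP 2 (X ⊓ Ce r) → IsCharP 2 (X ⊓ Ce z ⊓ Ce r) := by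
    intro r hr h
    have hn : z ∈ 𝒩(X ⊓ Ce r) :=
      le_norm_inf (zpowers_le.2 zn) (zpowers_le.2 (norm_Ce (mem_Ce.1 hr.2).symm)) (mem_zpowers z)
    have := cz h zz hn
    rwa [inf_right_comm] at this
  -- `B` has no involution
  have noinv : ∀ r ∈ X ⊓ Ce z ⊓ 𝒞(J), ¬ Ags.Inv r := by
    intro r hr ir
    obtain ⟨s, hs, is, cs⟩ := exists_inv_cent hP
      (le_norm_inf (le_norm_of_le hDY) (le_norm_cent hDJ)) hr ir
    have h1 := toY s hs.1 (big ev hS hDS hc hs.1.1 is cs)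
    have h2 : J ≤ X ⊓ Ce z ⊓ Ce s := le_inf hJY fun j hj => mem_Ce.2 (cm_of hs.2 hj).symm
    exact not_charP q (h1.of_subnIn (hJ.1.of_le h2 inf_le_left))
  obtain ⟨a, ha, ia⟩ := exists_inv_qs q
  have nJ : X ⊓ Ce z ≤ 𝒩(J) := by
    intro y hy
    have hc' : IsCompIn (cj y J) (X ⊓ Ce z) := hJ.conj_smul_of_mem_normalizer (le_normalizer hy)
    rcases hc'.eq_or_commutator_eq_bot hJ with e | e
    · exact cj_eq_iff_mem.1 e
    · exact absurd (ia.conj y)
        (noinv _ ⟨hc'.le (conj_mem_cj y ha), le_cent_iff.2 e (conj_mem_cj y ha)⟩)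
  obtain ⟨r0, hr0, i0, c0⟩ := exists_inv_cent hP hDJ ha ia
  have p0 : IsCharP 2 (X ⊓ Ce r0) := big ev hS hDS hc (hJY hr0).1 i0 c0
  have cJ : X ⊓ Ce z ⊓ 𝒞(J) = ⊥ := by
    by_contra hne
    have h1 := toY r0 (hJY hr0) p0
    have h2 : IsCharP 2 (X ⊓ Ce z ⊓ 𝒞(J)) :=
      h1.of_normal (le_inf inf_le_left fun b hb => mem_Ce.2 (cm_of hb.2 hr0))
        (le_norm_inf (inf_le_left.trans le_normalizer) (inf_le_left.trans (le_norm_cent nJ)))
    obtain ⟨y, hy, iy⟩ := exists_inv_of_isP (core_isP _) (h2.core_ne_bot hne)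
    exact noinv y (core_le _ hy) iy
  have hn : Nice J := nice (le_bot_iff.1 (cJ ▸ inf_le_inf_right _ hJY))
  refine ⟨sX, nX, ev, zz, zn, zc, hJY, nJ, cJ, hn, fun U S' hU hS' => ?_, fun b hb ib => ?_,
    fun r hr ir h => ?_⟩
  · rw [hS'.card_eq hS]
    have := hU.card_le hP hDY
    omega
  · obtain ⟨g, hg, rfl⟩ := hn.one r0 hr0 b hb i0 ib
    have := p0.cj g
    rwa [cj_inf, cj_Ce, cj_eq (le_normalizer (hJY hg).1)] at this
  · have h1 := toY r hr h
    have h2 : IsCharP 2 (J ⊓ Ce r) :=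
      h1.of_normal (inf_le_inf_right _ hJY)
        (le_norm_inf (inf_le_left.trans nJ) (inf_le_right.trans le_normalizer))
    obtain ⟨j, hj, c, hc2, e⟩ := (mem_sup_nr (le_norm_cent le_normalizer)).1 (hn.ch2 r (nJ hr) ir.1 h2)
    have hcY : c ∈ X ⊓ Ce z := by
      rw [show c = j⁻¹ * r by rw [← e]; group]
      exact mul_mem (inv_mem (hJY hj)) hr
    have : c = 1 := mem_bot.1 (cJ ▸ (⟨hcY, hc2⟩ : c ∈ X ⊓ Ce z ⊓ 𝒞(J)))
    rw [← e, this, mul_one]; exact hj

end CL.Q16
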