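/-
Project Q16: `z` is conjugate under `X` to `z a` for an involution `a` of `J`.
-/
import Cfsg.Agent.Q16.Defs
import Cfsg.Agent.Inv.ZStar
import Cfsg.Agent.Perm.OvDefs

set_option autoImplicit false

namespace CL.Q16

open Cfsg Subgroup CL.Even CL.Grp CL.Loc CL.Ags

universe u

namespace Core1h

variable {G : Type u} [Group G] [Finite G] {X J : Subgroup G} {z : G}

omit [Finite G] in
theorem mCe {x y : G} : y ∈ Ce x ↔ Commute y x := mem_centralizer_singleton_iff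

omit [Finite G] in
theorem charP_conj {v g : G} (hg : g ∈ X) (h : IsCharP 2 (X ⊓ Ce (g * v * g⁻¹))) : IsCharP 2 (X ⊓ Ce v) := by
  have e : X ⊓ Ce v = cj g⁻¹ (X ⊓ Ce (g * v * g⁻¹)) := by
    ext x
    rw [mem_cj, inv_inv, mem_inf, mem_inf, mCe, mCe, Commute.conj_iff]
    refine and_congr ⟨fun h => mul_mem (mul_mem hg h) (inv_mem hg), fun h => ?_⟩ Iff.rfl
    simpa [mul_assoc] using mul_mem (mul_mem (inv_mem hg) h) hg
  rw [e]
  exact h.cj _

omit [Finite G] in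
theorem zp (hz : z * z = 1) {b : G} (hb : b ∈ zpowers z) : b = 1 ∨ b = z := by
  obtain ⟨k, rfl⟩ := hb
  have h2 : z ^ (2 : ℤ) = 1 := by rw [zpow_two, hz]
  rcases Int.even_or_odd' k with ⟨m, rfl | rfl⟩
  · left; simp only [zpow_mul, h2, one_zpow]
  · right; simp only [zpow_add, zpow_mul, h2, one_zpow, one_mul, zpow_one]

omit [Finite G] in
theorem card_rel {S K : Subgroup G} (h : S ≤ K) : Nat.card S * S.relIndex K = Nat.card K := by
  rw [← Nat.card_congr (subgroupOfEquivOfLe h).toEquiv]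
  exact (S.subgroupOf K).card_mul_index

theorem cen (h : Co X J z) {S : Subgroup G} (hS : IsSylowIn 2 S X) {c : G} (hc : c ∈ S) (ic : Ags.Inv c)
    (cc : c ∈ 𝒞(S)) : IsCharP 2 (X ⊓ Ce c) := by
  refine (h.ev c (hS.le hc) ic).resolve_right fun hD => hS.not_dvd ?_
  have h1 := hD S hS.isPGroup (le_inf hS.le fun s hs => mCe.2 (cm_of cc hs).symm)
  rw [← card_rel hS.le, mul_comm 4] at h1
  exact dvd_trans (by norm_num) (Nat.dvd_of_mul_dvd_mul_left Nat.card_pos h1)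

theorem caseA (h : Co X J z) {U S : Subgroup G} (hU : IsSylowIn 2 U (X ⊓ Ce z)) (hS : IsSylowIn 2 S X)
    (US : U ≤ S) (zS : z ∈ 𝒩(S)) (ne : ¬ S ≤ U) : ∃ a ∈ J, Ags.Inv a ∧ ∃ g ∈ X, g * z * g⁻¹ = z * a := by
  haveI : Fact (Nat.Prime 2) := ⟨Nat.prime_two⟩
  have zi : z⁻¹ = z := inv_eq_of_mul_eq_one_left h.zz
  have Uz : ∀ u ∈ U, Commute u z := fun u hu => mCe.1 (hU.le hu).2
  have hSU : S ⊓ Ce z = U := hU.eq_of_le (hS.isPGroup.to_le inf_le_left)
    (le_inf US fun u hu => (hU.le hu).2) (inf_le_inf_right _ hS.le)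
  have inU : ∀ s ∈ S, Commute s z → s ∈ U := fun s hs hc => hSU ▸ ⟨hs, mCe.2 hc⟩
  have h2 : (U.subgroupOf S).index = 2 := by
    have a1 := card_rel US
    have a2 := h.idx U S hU hS
    have a3 : U.relIndex S ≠ 1 := fun e => ne (relIndex_eq_one.1 e)
    have a4 : U.relIndex S ≠ 0 := index_ne_zero_of_finite
    have a5 : U.relIndex S ≤ 2 := by
      rw [← a1, mul_comm 2] at a2
      exact Nat.le_of_mul_le_mul_left a2 Nat.card_pos
    change U.relIndex S = 2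
    omega
  have key : ∀ a ∈ S, ∀ b ∈ S, a * b ∈ U ↔ (a ∈ U ↔ b ∈ U) := fun a ha b hb =>
    mul_mem_iff_of_index_two h2 (a := ⟨a, ha⟩) (b := ⟨b, hb⟩)
  obtain ⟨s, hs, hsU⟩ := SetLike.not_le_iff_exists.1 ne
  have hsU' : s⁻¹ ∉ U := fun e => hsU (inv_mem_iff.1 e)
  have t1 : z * s * z⁻¹ ∉ U := fun e => hsU (inU s hs (by
    have := Uz _ e
    rwa [← Commute.conj_iff z⁻¹, show z⁻¹ * (z * s * z⁻¹) * z⁻¹⁻¹ = s by group,
      show z⁻¹ * z * z⁻¹⁻¹ = z by group] at this))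
  obtain ⟨c, hc⟩ : ∃ c, c = z * s * z⁻¹ * s⁻¹ := ⟨_, rfl⟩
  have cU : c ∈ U := hc ▸ (key _ (conj_mem zS hs) _ (inv_mem hs)).2 (iff_of_false t1 hsU')
  have e1 : s * z * s⁻¹ = z * c := by
    calc s * z * s⁻¹ = (z * z) * s * z⁻¹ * s⁻¹ := by rw [h.zz, zi, one_mul]
      _ = z * c := by rw [hc]; group
  have e2 : c = z * (s * z * s⁻¹) := by rw [e1, ← mul_assoc, h.zz, one_mul]
  have ic : Ags.Inv c := by
    refine ⟨?_, fun e => hsU (inU s hs ?_)⟩
    · calc c * c = z * z * (c * c) := by rw [h.zz, one_mul]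
        _ = (z * c) * (z * c) := by rw [mul_assoc z c, ← mul_assoc c z, (Uz c cU).eq]; group
        _ = s * (z * z) * s⁻¹ := by rw [← e1]; group
        _ = 1 := by rw [h.zz]; group
    · rw [e, mul_one, mul_inv_eq_iff_eq_mul] at e1
      exact e1
  have cU' : ∀ u ∈ U, Commute c u := fun u hu => by
    have a1 : s⁻¹ * u ∉ U := fun e => hsU' (((key _ (inv_mem hs) _ (US hu)).1 e).2 hu)
    have a2 : s⁻¹ * u * s ∈ U := (key _ (mul_mem (inv_mem hs) (US hu)) _ hs).2 (iff_of_false a1 hsU)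
    have a3 := (Uz _ a2).conj s
    rw [show s * (s⁻¹ * u * s) * s⁻¹ = u by group] at a3
    rw [e2]
    exact (Uz u hu).symm.mul_left a3.symm
  have cs : Commute c s := by
    have a1 : s * s ∈ U := (key _ hs _ hs).2 Iff.rfl
    have a2 : s * c * s⁻¹ = c := by
      calc s * c * s⁻¹ = (s * z * s⁻¹) * (s * s * z) * (s * s)⁻¹ := by rw [e2]; group
        _ = z * (c * z) := by rw [e1, (Uz _ a1).eq]; group
        _ = c := by rw [(Uz c cU).eq, ← mul_assoc, h.zz, one_mul]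
    rw [mul_inv_eq_iff_eq_mul] at a2
    exact a2.symm
  have cS : c ∈ 𝒞(S) := mc_iff.2 fun y hy => by
    by_cases hyU : y ∈ U
    · exact cU' y hyU
    · have := cs.mul_right (cU' _ ((key _ (inv_mem hs) _ hy).2 (iff_of_false hsU' hyU)))
      rwa [mul_inv_cancel_left] at this
  exact ⟨c, h.inJ c (hU.le cU) ic (cen h hS (US cU) ic cS), ic, s, hS.le hs, e1⟩

theorem fuse (h : Co X J z) : ∃ x ∈ X, Commute z (x * z * x⁻¹) ∧ x * z * x⁻¹ ≠ z := by
  have zi : z⁻¹ = z := inv_eq_of_mul_eq_one_left h.zz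
  have dec : ∀ y ∈ X ⊔ zpowers z, ∃ x ∈ X, y = x ∨ y = x * z := fun y hy => by
    obtain ⟨a, ha, b, hb, rfl⟩ := (mem_sup_nl (zpowers_le.2 h.zn)).1 hy
    exact ⟨a, ha, (zp h.zz hb).imp (fun e => by rw [e, mul_one]) fun e => by rw [e]⟩
  have hO : oddCore ↥(X ⊔ zpowers z) = ⊥ := by
    refine sSup_eq_bot.2 ?_
    rintro N ⟨hN, hc⟩
    have odd : ∀ n ∈ N, n * n = 1 → n = 1 := fun n hn e => by
      have a1 : orderOf n ∣ 2 := orderOf_dvd_of_pow_eq_one (by rw [pow_two, e])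
      have a2 : orderOf n ∣ Nat.card N := orderOf_dvd_natCard N hn
      exact orderOf_eq_one_iff.1 (Nat.eq_one_of_dvd_coprimes hc a2 a1)
    rcases h.sX.eq_bot_or_eq_top_of_normal (N.comap (inclusion (le_sup_left : X ≤ X ⊔ zpowers z)))
      (hN.comap _) with e | e
    · refine (eq_bot_iff_forall _).2 fun n hn => odd n hn ?_
      have a1 : ((n * n : ↥(X ⊔ zpowers z)) : G) ∈ X := by
        obtain ⟨x, hx, e' | e'⟩ := dec n n.2
        · rw [coe_mul, e']; exact mul_mem hx hx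
        · rw [coe_mul, e', show x * z * (x * z) = x * (z * x * z⁻¹) by rw [zi]; group]
          exact mul_mem hx (conj_mem h.zn hx)
      have a2 : (⟨_, a1⟩ : X) ∈ N.comap (inclusion (le_sup_left : X ≤ X ⊔ zpowers z)) := mul_mem hn hn
      rw [e, mem_bot] at a2
      have a3 : ((n * n : ↥(X ⊔ zpowers z)) : G) = 1 := congrArg Subtype.val a2
      exact Subtype.ext a3
    · exfalso
      obtain ⟨a, ha, -, -, ia, -⟩ := h.nice.four
      have a2 : (⟨a, (h.le ha).1⟩ : X) ∈ N.comap (inclusion (le_sup_left : X ≤ X ⊔ zpowers z)) := e ▸ mem_top _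
      exact ia.2 (congrArg Subtype.val (odd _ a2 (Subtype.ext ia.1)))
  have zH : z ∈ X ⊔ zpowers z := mem_sup_right (mem_zpowers z)
  by_contra hcon
  push Not at hcon
  have iso : IsIsolatedInvolution (⟨z, zH⟩ : ↥(X ⊔ zpowers z)) := by
    refine ⟨inv_iff.1 ⟨Subtype.ext h.zz, fun e => h.zc ?_⟩, fun g hg => Subtype.ext ?_⟩
    · rw [show z = 1 from congrArg Subtype.val e]; exact one_mem _
    · have hg' : Commute z (g * z * (g : G)⁻¹) := congrArg Subtype.val hg.eq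
      change (g : G) * z * (g : G)⁻¹ = z
      obtain ⟨x, hx, e | e⟩ := dec g g.2
      · rw [e] at hg' ⊢; exact hcon x hx hg'
      · have : (g : G) * z * (g : G)⁻¹ = x * z * x⁻¹ := by rw [e]; group
        rw [this] at hg' ⊢; exact hcon x hx hg'
  have hz := CL.Inv.zstar_mem_center hO iso
  exact h.zc (mc_iff.2 fun y hy =>
    (congrArg Subtype.val (mem_center_iff.1 hz ⟨y, mem_sup_left hy⟩) : y * z = z * y).symm)

theorem caseB (h : Co X J z) {S : Subgroup G} (hS : IsSylowIn 2 S X) (SY : S ≤ X ⊓ Ce z) :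
    ∃ a ∈ J, Ags.Inv a ∧ ∃ g ∈ X, g * z * g⁻¹ = z * a := by
  have zi : z⁻¹ = z := inv_eq_of_mul_eq_one_left h.zz
  obtain ⟨x, hx, hc, hne⟩ := fuse h
  obtain ⟨v, hv⟩ : ∃ v, v = z * (x * z * x⁻¹) := ⟨_, rfl⟩
  have e1 : x * z * x⁻¹ = z * v := by rw [hv, ← mul_assoc, h.zz, one_mul]
  have vX : v ∈ X := by
    rw [hv, show z * (x * z * x⁻¹) = z * x * z⁻¹ * x⁻¹ by rw [zi]; group]
    exact mul_mem (conj_mem h.zn hx) (inv_mem hx)
  have vz : Commute v z := hv ▸ (Commute.refl z).mul_left hc.symm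
  have iv : Ags.Inv v := by
    refine ⟨?_, fun e => hne (by rw [e1, e, mul_one])⟩
    calc v * v = z * z * (v * v) := by rw [h.zz, one_mul]
      _ = (z * v) * (z * v) := by rw [mul_assoc z v, ← mul_assoc v z, vz.eq]; group
      _ = x * (z * z) * x⁻¹ := by rw [← e1]; group
      _ = 1 := by rw [h.zz]; group
  haveI := h.sX
  obtain ⟨w, hw, hgen⟩ := h.nice.cyc S hS.isPGroup (SY.trans h.nJ)
  obtain ⟨g, hg⟩ := CL.Perm.Ov.cyc_transfer (G := X) h.nX (S := S.subgroupOf X) (N := J.subgroupOf X)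
    ⟨le_top, hS.isPGroup.comap_subtype, by rw [relIndex_top_right]; exact hS.not_dvd⟩
    (fun s hs => mem_normalizer_iff.2 fun y => mem_normalizer_iff.1 (h.nJ (SY hs)) (y : G))
    (w := ⟨w, hS.le hw⟩) hw (fun s hs => by
      obtain ⟨i, hi⟩ := hgen s hs
      obtain ⟨a, ha, b, hb, e⟩ := (mem_sup_nr (le_norm_cent le_normalizer)).1 hi
      have a1 : b ∈ X ⊓ Ce z ⊓ 𝒞(J) := by
        refine mem_inf.2 ⟨?_, hb⟩
        rw [eq_inv_mul_of_mul_eq e]
        exact mul_mem (inv_mem (h.le ha)) (SY (mul_mem (inv_mem (zpow_mem hw i)) hs))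
      rw [h.cJ, mem_bot] at a1
      refine ⟨i, ?_⟩
      change (w ^ i)⁻¹ * (s : G) ∈ J
      rw [← e, a1, mul_one]
      exact ha) (b := ⟨v, vX⟩) (inv_iff.1 ⟨Subtype.ext iv.1, fun e => iv.2 (congrArg Subtype.val e)⟩)
  exact ⟨v, h.inJ v ⟨vX, mCe.2 vz⟩ iv (charP_conj g.2 (h.c2 _ hg (iv.conj _))), iv, x, hx, e1⟩

end Core1h

open Core1h

theorem core1 : Core1.{u} := by
  intro G _ _ X J z h
  haveI : Fact (Nat.Prime 2) := ⟨Nat.prime_two⟩
  obtain ⟨U, hU⟩ := exists_isSylowIn 2 (X ⊓ Ce z)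
  obtain ⟨S, hS, US, zS⟩ := exists_syl_inv (K := X) (A := U) (U := zpowers z) (two_of_sq h.zz).isP
    (zpowers_le.2 h.zn) hU.isPGroup (hU.le.trans inf_le_left)
    (zpowers_le.2 (cent_le_norm U (mc_iff.2 fun y hy => (mCe.1 (hU.le hy).2).symm)))
  by_cases e : S ≤ U
  · exact caseB h hS (e.trans hU.le)
  · exact caseA h hU hS US (zS (mem_zpowers z)) e

end CL.Q16
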