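/-
Project Q16: the core lemma when the involutions of a Sylow 2-subgroup of `J` commute.
-/
import Cfsg.Agent.Q16.Defs

set_option autoImplicit false

namespace CL.Q16

open Cfsg Subgroup CL.Even CL.Grp CL.Loc CL.Ags
open scoped commutatorElement Pointwise

universe u

namespace CoreAx

variable {G : Type*} [Group G]

theorem mce {x g : G} : g ∈ Ce x ↔ g * x * g⁻¹ = x := by
  rw [mem_centralizer_singleton_iff, mul_inv_eq_iff_eq_mul]

theorem cj_Ce (g w : G) : cj g (Ce w) = Ce (g * w * g⁻¹) := by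
  ext x
  rw [mem_cj, mce, mce]
  constructor
  · intro h
    calc x * (g * w * g⁻¹) * x⁻¹ = g * (g⁻¹ * x * g * w * (g⁻¹ * x * g)⁻¹) * g⁻¹ := by group
      _ = _ := by rw [h]
  · intro h
    calc g⁻¹ * x * g * w * (g⁻¹ * x * g)⁻¹ = g⁻¹ * (x * (g * w * g⁻¹) * x⁻¹) * g := by group
      _ = _ := by rw [h]; group

theorem claimT [Finite G] {X J R : Subgroup G} {z a g : G} (h : Co X J z) (hR : IsSylowIn 2 R J) (hI : IC R)
    (ha : a ∈ J) (ia : Ags.Inv a) (hg : g ∈ X) (e : g * z * g⁻¹ = z * a) {v : G} (hv : v ∈ Om R) :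
    ∃ n ∈ X ⊓ 𝒩(Om R), n * z * n⁻¹ = z * v := by
  have : Fact (Nat.Prime 2) := ⟨Nat.prime_two⟩
  by_cases h1 : v = 1
  · exact ⟨1, one_mem _, by simp [h1]⟩
  obtain ⟨hvR, hv2⟩ := hI.mem_Om.1 hv
  obtain ⟨j, hj, hja⟩ := h.nice.one a ha v (hR.le hvR) ia ⟨hv2, h1⟩
  have hk : j * g ∈ X := mul_mem (h.le hj).1 hg
  have ek : j * g * z * (j * g)⁻¹ = z * v := by
    calc j * g * z * (j * g)⁻¹ = j * (g * z * g⁻¹) * j⁻¹ := by group
      _ = (j * z * j⁻¹) * (j * a * j⁻¹) := by rw [e]; group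
      _ = z * v := by rw [mce.1 (h.le hj).2, hja]
  generalize j * g = k at hk ek
  have hJ : cj k⁻¹ (Om R) ≤ J := by
    rintro _ ⟨w, hw, rfl⟩
    change k⁻¹ * w * k⁻¹⁻¹ ∈ J
    obtain ⟨hwR, hw2⟩ := hI.mem_Om.1 hw
    by_cases h2 : w = 1
    · simp [h2]
    have hwJ := hR.le hwR
    have iw : Ags.Inv w := ⟨hw2, h2⟩
    refine h.inJ _ ⟨conj_mem (le_normalizer (inv_mem hk)) (h.le hwJ).1, mce.2 ?_⟩ (iw.conj _) ?_
    · have c1 := mce.1 (h.le hwJ).2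
      have c2 : w * v * w⁻¹ = v := mul_inv_eq_iff_eq_mul.2 (hI w hwR v hvR hw2 hv2).eq
      calc k⁻¹ * w * k⁻¹⁻¹ * z * (k⁻¹ * w * k⁻¹⁻¹)⁻¹ = k⁻¹ * (w * (k * z * k⁻¹) * w⁻¹) * k := by group
        _ = k⁻¹ * ((w * z * w⁻¹) * (w * v * w⁻¹)) * k := by rw [ek]; group
        _ = z := by rw [c1, c2, ← ek]; group
    · have := (h.c2 w hwJ iw).cj k⁻¹
      rwa [cj_inf, cj_eq (le_normalizer (inv_mem hk)), cj_Ce] at this
  obtain ⟨j', hj', hle⟩ := hR.exists_conj_le (isPGroup_cj (hR.isPGroup.to_le (Om_le R)) k⁻¹) hJ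
  have hn : j' * k⁻¹ ∈ 𝒩(Om R) := mem_norm_of_cj_le (by
    have hle' : cj (j' * k⁻¹) (Om R) ≤ R := by rw [cj_mul]; exact hle
    intro x hx
    refine mem_Om (hle' hx) ?_
    have := (hI.mem_Om.1 (mem_cj.1 hx)).2
    calc x * x = (j' * k⁻¹) * ((j' * k⁻¹)⁻¹ * x * (j' * k⁻¹) * ((j' * k⁻¹)⁻¹ * x * (j' * k⁻¹))) * (j' * k⁻¹)⁻¹ := by
          group
      _ = 1 := by rw [this]; group)
  refine ⟨(j' * k⁻¹)⁻¹, inv_mem ⟨X.mul_mem (h.le hj').1 (X.inv_mem hk), hn⟩, ?_⟩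
  calc (j' * k⁻¹)⁻¹ * z * (j' * k⁻¹)⁻¹⁻¹ = k * (j'⁻¹ * z * j'⁻¹⁻¹) * k⁻¹ := by group
    _ = z * v := by rw [mce.1 ((Ce z).inv_mem (h.le hj').2), ek]

/-- the elements of `X ⊓ N(V)` which normalise the coset `z V` -/
def N1 (X V : Subgroup G) (z : G) : Subgroup G where
  carrier := {n | n ∈ X ⊓ 𝒩(V) ∧ z⁻¹ * (n * z * n⁻¹) ∈ V}
  one_mem' := ⟨one_mem _, by simp⟩
  mul_mem' := by
    rintro a b ⟨ha, ha'⟩ ⟨hb, hb'⟩
    refine ⟨mul_mem ha hb, ?_⟩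
    have := mul_mem ha' (conj_mem ha.2 hb')
    rwa [show z⁻¹ * (a * z * a⁻¹) * (a * (z⁻¹ * (b * z * b⁻¹)) * a⁻¹) = z⁻¹ * (a * b * z * (a * b)⁻¹) by group] at this
  inv_mem' := by
    rintro a ⟨ha, ha'⟩
    refine ⟨inv_mem ha, ?_⟩
    have := inv_mem (conj_mem' ha.2 ha')
    rwa [show (a⁻¹ * (z⁻¹ * (a * z * a⁻¹)) * a)⁻¹ = z⁻¹ * (a⁻¹ * z * a⁻¹⁻¹) by group] at this

theorem count [Finite G] {X U V : Subgroup G} {z : G} (hU : U ≤ X ⊓ Ce z) (hUV : U ≤ 𝒩(V))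
    (hT : ∀ v ∈ V, ∃ n ∈ X ⊓ 𝒩(V), n * z * n⁻¹ = z * v) : Nat.card U * Nat.card V ∣ Nat.card X := by
  letI : MulAction (N1 X V z) G := MulAction.compHom G ((MulAut.conj : G →* MulAut G).comp (N1 X V z).subtype)
  have sm : ∀ (n : N1 X V z) (x : G), n • x = n * x * (n : G)⁻¹ := fun _ _ => rfl
  have hUN : U ≤ N1 X V z := fun x hx => ⟨⟨(hU hx).1, hUV hx⟩, by rw [mce.1 (hU hx).2]; simp⟩
  have h1 : MulAction.orbit (N1 X V z) z = (fun v => z * v) '' (V : Set G) := by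
    ext y
    constructor
    · rintro ⟨n, rfl⟩
      exact ⟨_, n.2.2, by simp [sm]⟩
    · rintro ⟨v, hv, rfl⟩
      obtain ⟨n, hn, e⟩ := hT v hv
      exact ⟨⟨n, hn, by rw [e]; simpa using hv⟩, e⟩
  have h2 : (MulAction.stabilizer (N1 X V z) z).index = Nat.card V := by
    rw [MulAction.index_stabilizer, h1, Set.ncard_image_of_injective _ (mul_right_injective z)]
    exact (Nat.card_coe_set_eq _).symm
  have h3 : Nat.card U ∣ Nat.card (MulAction.stabilizer (N1 X V z) z) := by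
    rw [← Nat.card_congr (subgroupOfEquivOfLe hUN).toEquiv]
    exact card_dvd_of_le fun x hx => mce.1 (hU hx).2
  refine dvd_trans ?_ (card_dvd_of_le (show N1 X V z ≤ X from fun x hx => hx.1.1))
  rw [← (MulAction.stabilizer (N1 X V z) z).card_mul_index, h2]
  exact Nat.mul_dvd_mul_right h3 _

end CoreAx

open CoreAx in
theorem coreA : CoreA.{u} := by
  intro G _ _ X J z h hA a ha ia g hg e
  have : Fact (Nat.Prime 2) := ⟨Nat.prime_two⟩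
  obtain ⟨U, hU⟩ := exists_isSylowIn 2 (X ⊓ Ce z)
  obtain ⟨S, hS⟩ := exists_isSylowIn 2 X
  have hR := hU.inf_of_normalized h.le h.nJ
  have hI := hA _ hR
  have h1 := count hU.le (V := Om (U ⊓ J))
    (fun x hx => norm_Om (le_norm_inf le_normalizer (hU.le.trans h.nJ) hx)) fun v hv => claimT h hR hI ha ia hg e hv
  have h2 : 2 < Nat.card (Om (U ⊓ J)) := by
    obtain ⟨b, hb, c, hc, ib, ic, ne, -⟩ := h.nice.four.syl hR
    rw [show Nat.card (Om (U ⊓ J)) = (Om (U ⊓ J) : Set G).ncard from Nat.card_coe_set_eq _, Set.two_lt_ncard]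
    exact ⟨1, one_mem _, b, mem_Om hb ib.1, c, mem_Om hc ic.1, ib.2.symm, ic.2.symm, ne⟩
  obtain ⟨m, hm⟩ := hU.isPGroup.exists_card_eq
  obtain ⟨k, hk⟩ := (hR.isPGroup.to_le (Om_le _)).exists_card_eq
  have h3 := h.idx U S hU hS
  have h4 : Nat.card U * Nat.card (Om (U ⊓ J)) ≤ Nat.card S := by
    rw [hm, hk, ← pow_add] at h1 ⊢
    rw [hS.card_eq_pow]
    exact Nat.pow_le_pow_right two_pos ((Nat.prime_two.pow_dvd_iff_le_factorization Nat.card_pos.ne').1 h1)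
  have h5 : 0 < Nat.card U := Nat.card_pos
  nlinarith

end CL.Q16
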