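/-
Project Q16 (S1848): the core lemma, the case of self-centralising four-groups.
-/
import Cfsg.Agent.Q16.Defs

set_option autoImplicit false

namespace CL.Q16

open Cfsg Subgroup CL.Even CL.Grp CL.Loc CL.Ags

universe u

namespace CoreBh

variable {G : Type*} [Group G]

theorem mce {x g : G} : g ∈ Ce x ↔ Commute g x := mem_centralizer_singleton_iff

theorem cm_iff {x g : G} : Commute g x ↔ g * x * g⁻¹ = x := by
  rw [mul_inv_eq_iff_eq_mul]; rfl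

theorem cm_conj {x g : G} (h : Commute g x) (r : G) : Commute (r * g * r⁻¹) (r * x * r⁻¹) := h.conj r

theorem card_le_four {H : Subgroup G} {a b : G} (h : ∀ x ∈ H, x = 1 ∨ x = a ∨ x = b ∨ x = a * b) :
    Nat.card H ≤ 4 := by
  classical
  have h1 : (H : Set G) ⊆ (({1, a, b, a * b} : Finset G) : Set G) := fun x hx => by simpa using h x hx
  have h2 := Set.ncard_le_ncard h1 (Finset.finite_toSet _)
  rw [Set.ncard_coe_finset] at h2
  exact h2.trans Finset.card_le_four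

theorem four_le_card [Finite G] {H : Subgroup G} {a b : G} (ha : a ∈ H) (hb : b ∈ H) (ia : Ags.Inv a) (b1 : b ≠ 1)
    (ab : a ≠ b) : 4 ≤ Nat.card H := by
  have h1 : 2 < (H : Set G).ncard :=
    (Set.two_lt_ncard (Set.toFinite _)).2 ⟨1, H.one_mem, a, ha, b, hb, ia.2.symm, b1.symm, ab⟩
  have h2 : 2 ∣ Nat.card H := inv_iff.1 ia ▸ H.orderOf_dvd_natCard ha
  have h3 : 2 < Nat.card H := h1
  omega

theorem exists_two {W : Subgroup G} (h : 4 < Nat.card W) : ∃ a ∈ W, ∃ b ∈ W, a ≠ 1 ∧ b ≠ 1 ∧ a ≠ b := by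
  by_contra hn
  by_cases h1 : ∃ a ∈ W, a ≠ 1
  · obtain ⟨a, ha, a1⟩ := h1
    refine (card_le_four (a := a) (b := a) fun x hx => ?_).not_gt h
    by_contra hx'
    simp only [not_or] at hx'
    exact hn ⟨a, ha, x, hx, a1, hx'.1, fun e => hx'.2.1 e.symm⟩
  · refine (card_le_four (a := 1) (b := 1) fun x hx => Or.inl ?_).not_gt h
    by_contra hx'
    exact h1 ⟨x, hx, hx'⟩

theorem sq_mem [Finite G] {U S : Subgroup G} (h : U ≤ S) (h2 : U.relIndex S ≤ 2) {x : G} (hx : x ∈ S) :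
    x * x ∈ U := by
  have h0 : U.relIndex S ≠ 0 := index_ne_zero_of_finite
  rcases (by omega : U.relIndex S = 1 ∨ U.relIndex S = 2) with e | e
  · exact relIndex_eq_one.1 e (mul_mem hx hx)
  · exact mul_self_mem_of_index_two e ⟨x, hx⟩

variable [Finite G] {X J : Subgroup G} {z : G} (h : Co X J z)
include h

omit [Finite G] in
theorem sc (hT : TyB J) {a b y : G} (ha : a ∈ J) (hb : b ∈ J) (ia : Ags.Inv a) (ib : Ags.Inv b) (ab : a ≠ b)
    (c : Commute a b) (hy : y ∈ X ⊓ Ce z) (ya : Commute y a) (yb : Commute y b) :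
    y = 1 ∨ y = a ∨ y = b ∨ y = a * b := by
  obtain ⟨f, hf, hc⟩ := hT a ha b hb ia ib ab c y (h.nJ hy) ya yb
  have hfJ : f ∈ J := by
    rcases hf with rfl | rfl | rfl | rfl
    exacts [one_mem _, ha, hb, mul_mem ha hb]
  have h1 : f * y ∈ X ⊓ Ce z ⊓ 𝒞(J) := mem_inf.2 ⟨mul_mem (h.le hfJ) hy, hc⟩
  rw [h.cJ, mem_bot] at h1
  rw [eq_inv_of_mul_eq_one_right h1]
  rcases hf with rfl | rfl | rfl | rfl
  · exact Or.inl inv_one
  · exact Or.inr (Or.inl ia.inv_eq)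
  · exact Or.inr (Or.inr (Or.inl ib.inv_eq))
  · exact Or.inr (Or.inr (Or.inr (by rw [mul_inv_rev, ia.inv_eq, ib.inv_eq, c.eq])))

omit [Finite G] in
theorem inj {c x : G} (hc : c ∈ J) (ic : Ags.Inv c) (hx : x ∈ X) (hz : Commute (x * c * x⁻¹) z) :
    x * c * x⁻¹ ∈ J := by
  refine h.inJ _ (mem_inf.2 ⟨mul_mem (mul_mem hx (h.le hc).1) (inv_mem hx), mce.2 hz⟩) (ic.conj x) ?_
  have e : cj x (X ⊓ Ce c) = X ⊓ Ce (x * c * x⁻¹) := by
    rw [cj_inf, cj_eq (le_normalizer hx)]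
    congr 1
    ext y
    rw [mem_cj, mce, mce]
    constructor
    · intro h1
      simpa [mul_assoc] using cm_conj h1 x
    · intro h1
      simpa [mul_assoc] using cm_conj h1 x⁻¹
  exact e ▸ (h.c2 c hc ic).cj x

/-- the final contradiction from the group `P` -/
theorem fin (hT : TyB J) {a b : G} (ha : a ∈ J) (hb : b ∈ J) (ia : Ags.Inv a) (ib : Ags.Inv b) (ab : a ≠ b)
    (c : Commute a b) {P : Subgroup G} (hX : P ≤ X) (h2 : IsPGroup 2 P) (hc : ∀ x ∈ P, Commute x a ∧ Commute x b)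
    (h16 : 16 ≤ Nat.card P)
    (alt : (∀ x ∈ P, x * x = 1) ∨ ((∃ x ∈ P, x * x = a) ∧ ∃ x ∈ P, x * x = b)) : False := by
  obtain ⟨U, hU⟩ := exists_isSylowIn (p := 2) (X ⊓ Ce z)
  obtain ⟨S, hS, hUS⟩ := exists_isSylowIn_ge hU.isPGroup (hU.le.trans inf_le_left)
  have hi : U.relIndex S ≤ 2 := by
    have h1 := h.idx U S hU hS
    rw [← card_mul_relIndex hUS, mul_comm 2] at h1
    exact Nat.le_of_mul_le_mul_left h1 Nat.card_pos
  obtain ⟨m, hm, hle⟩ := hS.exists_conj_le h2 hX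
  change cj m P ≤ S at hle
  have h8 : 8 ≤ Nat.card (U ⊓ cj m P : Subgroup G) := by
    have h1 := card_inf_mul_relIndex U (cj m P)
    have h3 := (relIndex_le_of_le_right (H := U) hle index_ne_zero_of_finite).trans hi
    rw [card_cj] at h1
    have h4 := Nat.mul_le_mul_left (Nat.card (U ⊓ cj m P : Subgroup G)) h3
    omega
  rcases alt with alt | ⟨⟨x, hx, xa⟩, y, hy, yb⟩
  · have hsq : ∀ x ∈ U ⊓ cj m P, x * x = 1 := by
      rintro _ ⟨-, y, hy, rfl⟩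
      rw [← map_mul, alt y hy, map_one]
    obtain ⟨W, hW, eW, hm2⟩ := h.nice.m2
    have h1 := hm2 (U ⊓ cj m P) (inf_le_left.trans (hU.le.trans h.nJ))
      (elem_iff.2 ⟨fun x hx => mc_iff.2 fun y hy => ?_, fun x hx => by rw [pow_two, hsq x hx]⟩)
      (eq_bot_iff.2 (h.cJ ▸ inf_le_inf_right _ (inf_le_left.trans hU.le)))
    · obtain ⟨a', ha', b', hb', a1, b1, ab'⟩ := exists_two (W := W) (by omega)
      obtain ⟨e1, e2⟩ := elem_iff.1 eW
      have := card_le_four (H := W) fun x hx => sc h hT (hW ha') (hW hb') ⟨by rw [← pow_two, e2 _ ha'], a1⟩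
        ⟨by rw [← pow_two, e2 _ hb'], b1⟩ ab' (cm_of (e1 ha') hb') (h.le (hW hx)) (cm_of (e1 hx) ha')
        (cm_of (e1 hx) hb')
      omega
    · have h3 := hsq _ (mul_mem hx hy)
      calc x * y = (x * y)⁻¹ := eq_inv_of_mul_eq_one_left h3
        _ = y * x := by
          rw [mul_inv_rev, inv_eq_of_mul_eq_one_right (hsq x hx), inv_eq_of_mul_eq_one_right (hsq y hy)]
  · have key : ∀ x ∈ P, ∀ d ∈ J, Ags.Inv d → x * x = d → m * d * m⁻¹ ∈ J := by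
      intro x hx d hd id e
      refine inj h hd id hm (mce.1 (hU.le ?_).2)
      have := sq_mem hUS hi (hle (conj_mem_cj m hx))
      rwa [show m * x * m⁻¹ * (m * x * m⁻¹) = m * (x * x) * m⁻¹ by group, e] at this
    have := card_le_four (H := U ⊓ cj m P) fun w hw => by
      obtain ⟨hw1, v, hv, rfl⟩ := hw
      exact sc h hT (key x hx a ha ia xa) (key y hy b hb ib yb) (ia.conj m) (ib.conj m)
        (fun e => ab (by simpa using e)) (cm_conj c m) (hU.le hw1) (cm_conj (hc v hv).1 m) (cm_conj (hc v hv).2 m)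
    omega

/-- construction of the group of order 16 -/
theorem main (hT : TyB J) {a b r t : G} (ha : a ∈ J) (hb : b ∈ J) (ia : Ags.Inv a) (ib : Ags.Inv b) (ab : a ≠ b)
    (c : Commute a b) (hr : r ∈ J) (ra : r * a * r⁻¹ = b) (rb : r * b * r⁻¹ = a * b) (ht : t ∈ X)
    (ta : Commute t a) (tb : Commute t b) (tz : t * z * t⁻¹ = z * b) : False := by
  have rab : r * (a * b) * r⁻¹ = a := by
    calc r * (a * b) * r⁻¹ = (r * a * r⁻¹) * (r * b * r⁻¹) := by group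
      _ = a := by rw [ra, rb, ← mul_assoc, ← c.eq, mul_assoc, ib.1, mul_one]
  have rz : r * z * r⁻¹ = z := cm_iff.1 (mce.1 (h.le hr).2)
  obtain ⟨E, hE⟩ : ∃ E : Subgroup G, ∀ x, x ∈ E ↔ x ∈ X ∧ Commute x a ∧ Commute x b :=
    ⟨X ⊓ (Ce a ⊓ Ce b), fun x => by simp only [mem_inf, mce]⟩
  obtain ⟨F, hF⟩ : ∃ F : Subgroup G, ∀ x, x ∈ F ↔ x ∈ E ∧ Commute x z :=
    ⟨E ⊓ Ce z, fun x => by simp only [mem_inf, mce]⟩
  have hF4 : ∀ f ∈ F, f = 1 ∨ f = a ∨ f = b ∨ f = a * b := fun f hf => by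
    obtain ⟨h1, h2⟩ := (hF f).1 hf
    obtain ⟨h3, h4, h5⟩ := (hE f).1 h1
    exact sc h hT ha hb ia ib ab c (mem_inf.2 ⟨h3, mce.2 h2⟩) h4 h5
  have aF : a ∈ F := (hF _).2 ⟨(hE _).2 ⟨(h.le ha).1, Commute.refl a, c⟩, mce.1 (h.le ha).2⟩
  have bF : b ∈ F := (hF _).2 ⟨(hE _).2 ⟨(h.le hb).1, c.symm, Commute.refl b⟩, mce.1 (h.le hb).2⟩
  have hEF : ∀ n ∈ E, ∀ f ∈ F, n * f * n⁻¹ = f := fun n hn f hf => by
    obtain ⟨-, h4, h5⟩ := (hE n).1 hn
    rw [← cm_iff]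
    rcases hF4 f hf with rfl | rfl | rfl | rfl
    exacts [Commute.one_right n, h4, h5, h4.mul_right h5]
  have hFF : ∀ f ∈ F, f * f = 1 := fun f hf => by
    rcases hF4 f hf with rfl | rfl | rfl | rfl
    exacts [mul_one 1, ia.1, ib.1, by rw [← pow_two, c.mul_pow, pow_two, pow_two, ia.1, ib.1, mul_one]]
  have rE : ∀ n ∈ E, r * n * r⁻¹ ∈ E := fun n hn => by
    obtain ⟨h3, h4, h5⟩ := (hE n).1 hn
    refine (hE _).2 ⟨mul_mem (mul_mem (h.le hr).1 h3) (inv_mem (h.le hr).1), ?_, ?_⟩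
    · have := cm_conj (h4.mul_right h5) r
      rwa [rab] at this
    · have := cm_conj h4 r
      rwa [ra] at this
  have rF : ∀ f ∈ F, r * f * r⁻¹ ∈ F := fun f hf => by
    obtain ⟨h1, h2⟩ := (hF f).1 hf
    refine (hF _).2 ⟨rE f h1, ?_⟩
    have := cm_conj h2 r
    rwa [rz] at this
  have zi : z⁻¹ = z := inv_eq_of_mul_eq_one_right h.zz
  have hmul : ∀ n ∈ E, ∀ m, z * (m * z * m⁻¹) ∈ F →
      z * (n * m * z * (n * m)⁻¹) = z * (n * z * n⁻¹) * (z * (m * z * m⁻¹)) := fun n hn m hm => by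
    calc z * (n * m * z * (n * m)⁻¹) = z * (n * z⁻¹ * n⁻¹) * (n * (z * (m * z * m⁻¹)) * n⁻¹) := by group
      _ = _ := by rw [hEF n hn _ hm, zi]
  let P : Subgroup G :=
    { carrier := {n | n ∈ E ∧ z * (n * z * n⁻¹) ∈ F}
      one_mem' := ⟨one_mem _, by simpa [h.zz] using one_mem F⟩
      mul_mem' := by
        rintro n m ⟨h1, h2⟩ ⟨h3, h4⟩
        exact ⟨mul_mem h1 h3, by rw [hmul n h1 m h4]; exact mul_mem h2 h4⟩
      inv_mem' := by
        rintro n ⟨h1, h2⟩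
        refine ⟨inv_mem h1, ?_⟩
        have e : z * (n⁻¹ * z * n⁻¹⁻¹) = n⁻¹ * (z⁻¹ * (n * z⁻¹ * n⁻¹))⁻¹ * n⁻¹⁻¹ := by group
        rw [e, zi, hEF _ (inv_mem h1) _ (inv_mem h2)]
        exact inv_mem h2 }
  have rphi : ∀ n, z * (r * n * r⁻¹ * z * (r * n * r⁻¹)⁻¹) = r * (z * (n * z * n⁻¹)) * r⁻¹ := fun n => by
    calc z * (r * n * r⁻¹ * z * (r * n * r⁻¹)⁻¹)
        = (r * z * r⁻¹) * (r * n * r⁻¹ * (r * z * r⁻¹) * (r * n * r⁻¹)⁻¹) := by rw [rz]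
      _ = _ := by group
  have rP : ∀ n ∈ P, r * n * r⁻¹ ∈ P := fun n hn => ⟨rE n hn.1, by rw [rphi]; exact rF _ hn.2⟩
  have hsq : ∀ x ∈ P, x * x ∈ F := fun x hx => by
    refine (hF _).2 ⟨mul_mem hx.1 hx.1, cm_iff.2 ?_⟩
    have := hmul x hx.1 x hx.2
    rw [hFF _ hx.2] at this
    rw [eq_inv_of_mul_eq_one_right this, zi]
  have hFP : ∀ f ∈ F, z * (f * z * f⁻¹) = 1 := fun f hf => by rw [cm_iff.1 ((hF f).1 hf).2, h.zz]
  have FP : F ≤ P := fun f hf => ⟨((hF f).1 hf).1, by rw [hFP f hf]; exact one_mem _⟩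
  have tphi : z * (t * z * t⁻¹) = b := by rw [tz, ← mul_assoc, h.zz, one_mul]
  have tP : t ∈ P := ⟨(hE _).2 ⟨ht, ta, tb⟩, by rw [tphi]; exact bF⟩
  let φ : P →* G := MonoidHom.mk' (fun n => z * (n * z * (n : G)⁻¹)) fun n m => hmul n n.2.1 m m.2.2
  have h16 : 16 ≤ Nat.card P := by
    have h1 : 4 ≤ Nat.card φ.ker :=
      four_le_card (a := ⟨a, FP aF⟩) (b := ⟨b, FP bF⟩) (hFP a aF) (hFP b bF)
        ⟨Subtype.ext ia.1, fun e => ia.2 (congrArg Subtype.val e)⟩ (fun e => ib.2 (congrArg Subtype.val e))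
        fun e => ab (congrArg Subtype.val e)
    have h2 : 4 ≤ Nat.card φ.range := by
      refine four_le_card (a := b) (b := a * b) ⟨⟨t, tP⟩, tphi⟩ ⟨⟨_, rP t tP⟩, ?_⟩ ib (fun e => ab ?_)
        fun e => ia.2 (right_eq_mul.1 e)
      · exact (rphi t).trans (by rw [tphi, rb])
      · rw [eq_inv_of_mul_eq_one_left e, ib.inv_eq]
    rw [← φ.ker.card_mul_index, index_ker]
    exact Nat.mul_le_mul h1 h2
  refine fin h hT ha hb ia ib ab c (P := P) (fun x hx => ((hE x).1 hx.1).1)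
    (isP_of_two fun x hx => ⟨2, ?_⟩) (fun x hx => ((hE x).1 hx.1).2) h16 ?_
  · rw [← hFF _ (hsq x hx), pow_two 2, pow_mul, pow_two, pow_two]
  · have step : ∀ f g, r * f * r⁻¹ = g → (∃ x ∈ P, x * x = f) → ∃ x ∈ P, x * x = g := by
      rintro _ _ rfl ⟨x, hx, rfl⟩
      exact ⟨_, rP x hx, by group⟩
    by_cases h1 : ∀ x ∈ P, x * x = 1
    · exact Or.inl h1
    right
    simp only [not_forall] at h1
    obtain ⟨x, hx, h1⟩ := h1
    have sa : ∃ x ∈ P, x * x = a := by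
      rcases hF4 _ (hsq x hx) with e | e | e | e
      exacts [absurd e h1, ⟨x, hx, e⟩, step _ _ rab (step _ _ rb ⟨x, hx, e⟩), step _ _ rab ⟨x, hx, e⟩]
    exact ⟨sa, step _ _ ra sa⟩

end CoreBh

open CoreBh in
theorem coreB (hB : B3.{u}) : CoreB.{u} := by
  intro G _ _ X J z h hT a0 ha0 ia0 g hg hgz
  have hJ : J ⊓ 𝒞(J) = ⊥ := eq_bot_iff.2 (h.cJ ▸ inf_le_inf_right _ h.le)
  obtain ⟨a, ha, b, hb, ia, ib, ab, c⟩ := h.nice.four
  obtain ⟨j, hj, hja⟩ := h.nice.one a0 ha0 a ha ia0 ia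
  have cz : ∀ x ∈ J, x * z * x⁻¹ = z := fun x hx => cm_iff.1 (mce.1 (h.le hx).2)
  obtain ⟨k, hk, kz⟩ : ∃ k ∈ X, k * z * k⁻¹ = z * a := by
    refine ⟨j * g, mul_mem (h.le hj).1 hg, ?_⟩
    calc j * g * z * (j * g)⁻¹ = j * (g * z * g⁻¹) * j⁻¹ := by group
      _ = (j * z * j⁻¹) * (j * a0 * j⁻¹) := by rw [hgz]; group
      _ = z * a := by rw [cz j hj, hja]
  have key : ∀ d ∈ J, Ags.Inv d → Commute d a → k⁻¹ * d * k⁻¹⁻¹ ∈ J := fun d hd id da => by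
    refine inj h hd id (inv_mem hk) ?_
    have := cm_conj ((mce.1 (h.le hd).2).mul_right da) k⁻¹
    rwa [← kz, show k⁻¹ * (k * z * k⁻¹) * k⁻¹⁻¹ = z by group] at this
  obtain ⟨r, hr, ra, rb⟩ := hB G J h.nice hT hJ a ha b hb ia ib ab c
  obtain ⟨s, hs, sa, sb⟩ := hB G J h.nice hT hJ _ (key a ha ia (Commute.refl a)) _ (key b hb ib c.symm)
    (ia.conj _) (ib.conj _) (fun e => ab (by simpa using e)) (cm_conj c _)
  have sa' : k * s * k⁻¹ * a * (k * s * k⁻¹)⁻¹ = b := by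
    calc k * s * k⁻¹ * a * (k * s * k⁻¹)⁻¹ = k * (s * (k⁻¹ * a * k⁻¹⁻¹) * s⁻¹) * k⁻¹ := by group
      _ = b := by rw [sa]; group
  have sb' : k * s * k⁻¹ * b * (k * s * k⁻¹)⁻¹ = a * b := by
    calc k * s * k⁻¹ * b * (k * s * k⁻¹)⁻¹ = k * (s * (k⁻¹ * b * k⁻¹⁻¹) * s⁻¹) * k⁻¹ := by group
      _ = a * b := by rw [sb]; group
  have sz' : k * s * k⁻¹ * z * (k * s * k⁻¹)⁻¹ = z * (a * b) := by
    calc k * s * k⁻¹ * z * (k * s * k⁻¹)⁻¹
        = k * s * k⁻¹ * (z * a) * (k * s * k⁻¹)⁻¹ * (k * s * k⁻¹ * a * (k * s * k⁻¹)⁻¹)⁻¹ := by group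
      _ = k * (s * z * s⁻¹) * k⁻¹ * b⁻¹ := by rw [sa', ← kz]; group
      _ = z * (a * b) := by rw [cz s hs, kz, ib.inv_eq, mul_assoc]
  obtain ⟨σ, hσ⟩ : ∃ σ, σ = k * s * k⁻¹ := ⟨_, rfl⟩
  have hσX : σ ∈ X := hσ ▸ mul_mem (mul_mem hk (h.le hs).1) (inv_mem hk)
  rw [← hσ] at sa' sb' sz'
  refine main h hT ha hb ia ib ab c hr ra rb (t := r⁻¹ * σ) (mul_mem (inv_mem (h.le hr).1) hσX)
    (cm_iff.2 ?_) (cm_iff.2 ?_) ?_
  · calc r⁻¹ * σ * a * (r⁻¹ * σ)⁻¹ = r⁻¹ * (σ * a * σ⁻¹) * r := by group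
      _ = a := by rw [sa', ← ra]; group
  · calc r⁻¹ * σ * b * (r⁻¹ * σ)⁻¹ = r⁻¹ * (σ * b * σ⁻¹) * r := by group
      _ = b := by rw [sb', ← rb]; group
  · calc r⁻¹ * σ * z * (r⁻¹ * σ)⁻¹ = r⁻¹ * (σ * z * σ⁻¹) * r := by group
      _ = r⁻¹ * ((r * z * r⁻¹) * (r * b * r⁻¹)) * r := by rw [sz', cz r hr, rb]
      _ = z * b := by group

end CL.Q16
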