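/-
Q16-COV1: a proper 2-cover of a simple group with a Suzuki 2-group as Sylow 2-subgroup.
-/
import Cfsg.Agent.Q16.Defs
import Cfsg.Agent.Transfer.Control
import Cfsg.Agent.Grp.Coprime2

set_option autoImplicit false

namespace CL.Q16

open Cfsg Subgroup CL.Even CL.Grp CL.Loc CL.Ags
open scoped commutatorElement

universe u

namespace Cov1

variable {G : Type*} [Group G] [Finite G]

theorem avoid {S V : Subgroup G} (h : 4 * Nat.card V < Nat.card S) (a b c d : G) :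
    ∃ w ∈ S, a * w ∉ V ∧ b * w ∉ V ∧ c * w ∉ V ∧ d * w ∉ V := by
  by_contra k
  push Not at k
  have e : ∀ x : G, ((x⁻¹ * ·) '' (V : Set G)).ncard ≤ Nat.card V := fun x => Set.ncard_image_le (Set.toFinite _)
  have : (S : Set G) ⊆ (a⁻¹ * ·) '' V ∪ (b⁻¹ * ·) '' V ∪ ((c⁻¹ * ·) '' V ∪ (d⁻¹ * ·) '' V) := fun w hw => by
    by_contra n
    simp only [Set.mem_union, not_or] at n
    exact n.2.2 ⟨_, k w hw (fun z => n.1.1 ⟨_, z, by simp⟩) (fun z => n.1.2 ⟨_, z, by simp⟩)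
      fun z => n.2.1 ⟨_, z, by simp⟩, by simp⟩
  have c1 := (Set.ncard_le_ncard this).trans (Set.ncard_union_le _ _)
  have c2 := Set.ncard_union_le ((a⁻¹ * ·) '' (V : Set G)) ((b⁻¹ * ·) '' V)
  have c3 := Set.ncard_union_le ((c⁻¹ * ·) '' (V : Set G)) ((d⁻¹ * ·) '' V)
  have := e a; have := e b; have := e c; have := e d
  change Nat.card S ≤ _ at c1
  omega

theorem idx2 {W V : Subgroup G} (hV : IsPGroup 2 V) (h : W < V) :
    ∃ N : Subgroup G, W ≤ N ∧ N < V ∧ ∀ a ∈ V, ∀ b ∈ V, a * b ∈ N ↔ (a ∈ N ↔ b ∈ N) := by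
  obtain ⟨m, hm⟩ := IsPGroup.iff_card.1 hV
  obtain ⟨n, hn⟩ := IsPGroup.iff_card.1 (hV.to_le h.le)
  have lt : n < m := by
    by_contra k
    exact h.ne (eq_of_le_of_card_ge h.le (by rw [hm, hn]; exact Nat.pow_le_pow_right two_pos (not_lt.1 k)))
  obtain ⟨m, rfl⟩ := Nat.exists_eq_add_one_of_ne_zero (Nat.ne_zero_of_lt lt)
  obtain ⟨K, c, le⟩ := Sylow.exists_subgroup_card_pow_prime_le 2 (G := V) (n := n) (m := m)
    (hm ▸ pow_dvd_pow 2 m.le_succ) (W.subgroupOf V)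
    ((Nat.card_congr (subgroupOfEquivOfLe h.le).toEquiv).trans hn) (Nat.lt_succ_iff.1 lt)
  have i : K.index = 2 := by
    have := K.card_mul_index
    rw [c, hm, pow_succ] at this
    exact Nat.eq_of_mul_eq_mul_left (by positivity) this
  have mm : ∀ a : V, (a : G) ∈ K.map V.subtype ↔ a ∈ K := fun a => mem_map_iff_mem V.subtype_injective
  refine ⟨K.map V.subtype, fun w hw => (mm ⟨w, h.le hw⟩).2 (le hw), lt_of_le_of_ne (map_subtype_le _) fun e => ?_,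
    fun a ha b hb => ?_⟩
  · rw [show K = ⊤ from eq_top_iff.2 fun a _ => (mm a).1 (e.ge a.2), index_top] at i
    omega
  · exact (mm (⟨a, ha⟩ * ⟨b, hb⟩)).trans ((mul_mem_iff_of_index_two i).trans (iff_congr (mm _) (mm _)).symm)

end Cov1

open Cov1

theorem covS1 : CovS1.{u} := by
  intro L _ _ hq hZ Z0 na S hS ⟨z1, z2, z3, z4, z5⟩ a ⟨aS, aC⟩
  by_contra aZ
  set π := QuotientGroup.mk' (center L) with hπ
  have p1 : ∀ {x}, π x = 1 ↔ x ∈ center L := fun {x} => QuotientGroup.eq_one_iff x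
  have ZS : center L ≤ S := hS.le_of_normalized hZ le_top (le_normalizer_of_normal)
  have mS : ∀ {x}, π x ∈ S.map π ↔ x ∈ S := fun {x} => by
    rw [← mem_comap, comap_map_eq, QuotientGroup.ker_mk', sup_eq_left.2 ZS]
  have ic : IC (S.map π) := fun x hx y hy e _ => cm_of (z1 x hx e) hy
  set V := (Om (S.map π)).comap π with hV
  have mV : ∀ {x}, x ∈ V ↔ x ∈ S ∧ π x * π x = 1 := fun {x} => by rw [mem_comap, ic.mem_Om, mS]
  have VS : V ≤ S := fun _ hx => (mV.1 hx).1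
  have ZV : center L ≤ V := fun x hx => mV.2 ⟨ZS hx, by rw [p1.2 hx, mul_one]⟩
  have zc : ∀ {z}, z ∈ center L → ∀ g, g * z * g⁻¹ = z := fun hz g => by
    rw [mem_center_iff.1 hz g, mul_inv_cancel_right]
  obtain ⟨n, ia⟩ := (Two.of_mem (hS.isPGroup.map π) (mS.2 aS)).exists_inv fun e => aZ (p1.1 e)
  rw [← map_pow] at ia
  replace aC := pow_mem aC n
  replace aS := pow_mem aS n
  generalize a ^ n = b at *
  obtain ⟨P, hP⟩ := isSylowIn_top_iff.1 (show IsSylowIn 2 (S.map π) ⊤ from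
    map_top_of_surjective π (QuotientGroup.mk'_surjective _) ▸ syl_map π hS)
  have tr : ∀ x ∈ V, x ∉ center L → ∀ y ∈ V, y ∉ center L → ∃ h ∈ 𝒩(S), π (h * x * h⁻¹) = π y := by
    intro x hx x1 y hy y1
    obtain ⟨g, hg⟩ := isConj_iff.1 (na.one (π x) (π y) ⟨(mV.1 hx).2, fun e => x1 (p1.1 e)⟩
      ⟨(mV.1 hy).2, fun e => y1 (p1.1 e)⟩)
    obtain ⟨k, hk, e⟩ := CL.Transfer.fusion_normalizer_of_mem_centralizer P (x := π x)
      (by change _ ∈ 𝒞(P.1); rw [hP]; exact z1 _ (mS.2 (VS hx)) (mV.1 hx).2) g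
      (by change _ ∈ 𝒞(P.1); rw [hP, hg]; exact z1 _ (mS.2 (VS hy)) (mV.1 hy).2)
    obtain ⟨k, rfl⟩ := QuotientGroup.mk'_surjective _ k
    change _ ∈ 𝒩(P.1) at hk
    rw [hP] at hk
    refine ⟨k, mem_normalizer_fintype fun s hs => mS.1 ?_, by rw [map_mul, map_mul, map_inv, ← hg]; exact e⟩
    rw [map_mul, map_mul, map_inv]
    exact conj_mem hk (mS.2 hs)
  have VC : V ≤ 𝒞(S) := fun v hv => by
    by_cases e : v ∈ center L
    · exact fun s _ => mem_center_iff.1 e s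
    obtain ⟨h, hh, k⟩ := tr b (mV.2 ⟨aS, ia.1⟩) (fun z => ia.2 (p1.2 z)) v hv e
    have : (h * b * h⁻¹)⁻¹ * v ∈ center L := p1.1 (by rw [map_mul, map_inv, k, inv_mul_cancel])
    simpa only [mul_inv_cancel_left] using mul_mem (conj_mem (norm_cent hh) aC)
      (show (h * b * h⁻¹)⁻¹ * v ∈ 𝒞(S) from fun s _ => mem_center_iff.1 this s)
  have nV : 𝒩(S) ≤ 𝒩(V) := fun h hh => mem_normalizer_fintype fun v hv => mV.2 ⟨conj_mem hh (VS hv), by
    rw [map_mul, map_mul, map_inv, conj_mul, (mV.1 hv).2, mul_one, mul_inv_cancel]⟩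
  have hS' := hS.of_le le_normalizer le_top
  have hV2 : IsPGroup 2 V := hS.isPGroup.to_le VS
  have cop : ∀ {X : Subgroup L}, IsPGroup 2 X → (S.relIndex 𝒩(S)).Coprime (Nat.card X) := fun hX => by
    obtain ⟨k, e⟩ := IsPGroup.iff_card.1 hX
    rw [e]
    exact ((Nat.Prime.coprime_iff_not_dvd Nat.prime_two).2 hS'.not_dvd).symm.pow_right _
  obtain ⟨H, hH, sup, -, cH⟩ := exists_complement_in le_normalizer le_rfl (cop hS.isPGroup).symm
  have : IsMulCommutative V := ⟨⟨fun x y => Subtype.ext (VC y.2 x (VS x.2))⟩⟩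
  have d := inf_centralizer_inf_commutator_eq_bot (hH.trans nV) (cH ▸ cop hV2)
  have ZH : center L ≤ V ⊓ 𝒞(H) := le_inf ZV fun z hz s _ => mem_center_iff.1 hz s
  obtain ⟨N, WN, NV, mul⟩ := idx2 hV2 (lt_of_le_of_ne (commutator_le_of_le_norm (hH.trans nV)) fun e =>
    Z0 (eq_bot_iff.2 (d ▸ le_inf ZH (ZV.trans e.ge))))
  have dec : ∀ h ∈ 𝒩(S), ∃ s ∈ S, ∃ k ∈ H, h = s * k := fun h hh =>
    (mem_sup_iff_of_le_normalizer hH).1 (sup.ge hh)
  have nN : ∀ h ∈ 𝒩(S), ∀ v ∈ V, h * v * h⁻¹ ∈ N ↔ v ∈ N := fun h hh v hv => by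
    obtain ⟨s, hs, k, hk, rfl⟩ := dec h hh
    have e : s * k * v * (s * k)⁻¹ = v * ⁅v⁻¹, k⁆ := by
      have := VC (conj_mem (nV (hH hk)) hv) s hs
      calc _ = s * (k * v * k⁻¹) * s⁻¹ := by group
        _ = _ := by rw [this, commutatorElement_def]; group
    rw [e, mul_mem_cancel_right (WN (commutator_mem_commutator (inv_mem hv) hk))]
  have ZN : ¬ center L ≤ N := fun le => NV.not_ge fun v hv => by
    obtain ⟨x, hx, c, hc, rfl⟩ := exists_commutator_mul_centralizer (hH.trans nV) (cH ▸ cop hV2)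
      (Or.inr (by have := hV2.isNilpotent; infer_instance)) hv
    refine mul_mem (WN hx) (le ?_)
    by_contra c1
    have fx : ∀ y ∈ V, y ∉ center L → π y = π c := fun y hy y1 => by
      obtain ⟨h, hh, e⟩ := tr c hc.1 c1 y hy y1
      obtain ⟨s, hs, k, hk, rfl⟩ := dec h hh
      rw [← e, conj_eq_of_mem (H := zpowers c) _ (mem_zpowers c)]
      exact mul_mem (cent_symm (zpowers_le.2 (VC hc.1)) hs) (cent_symm (zpowers_le.2 hc.2) hk)
    obtain ⟨_, ⟨x, hx, rfl⟩, _, ⟨y, hy, rfl⟩, ix, iy, ne, -⟩ := na.four.syl (hP ▸ isSylowIn_top P)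
    exact ne ((fx x (mV.2 ⟨hx, ix.1⟩) fun z => ix.2 (p1.2 z)).trans
      (fx y (mV.2 ⟨hy, iy.1⟩) fun z => iy.2 (p1.2 z)).symm)
  have sq : ∀ s ∈ S, s * s ∈ V := fun s hs => mV.2 ⟨mul_mem hs hs, by rw [map_mul]; exact z2 _ (mS.2 hs)⟩
  have cm : ∀ s ∈ S, ∀ t ∈ S, ⁅s⁻¹, t⁆ ∈ V := fun s hs t ht => mV.2 ⟨cmt_mem_l (inv_mem hs) (le_normalizer ht), by
    rw [map_commutatorElement]; exact z3 _ (mS.2 (inv_mem hs)) _ (mS.2 ht)⟩
  have id1 : ∀ s t : L, s * t * (s * t) = s * s * ⁅s⁻¹, t⁆ * (t * t) := fun s t => by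
    rw [commutatorElement_def]; group
  have cst : ∀ s ∈ S, s ∉ V → ∀ t ∈ S, t ∉ V → (s * s ∈ N ↔ t * t ∈ N) := fun s hs s1 t ht t1 => by
    obtain ⟨h, hh, e⟩ := tr _ (sq s hs) (fun z => s1 (mV.2 ⟨hs, by rw [← map_mul, p1.2 z]⟩)) _ (sq t ht)
      fun z => t1 (mV.2 ⟨ht, by rw [← map_mul, p1.2 z]⟩)
    rw [← nN h hh _ (sq s hs), ← conj_mul]
    rw [← conj_mul, map_mul, map_mul π t] at e
    have r := conj_mem hh hs
    generalize h * s * h⁻¹ = r' at *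
    have v : r'⁻¹ * t ∈ V := mV.2 ⟨mul_mem (inv_mem r) ht, by
      rw [map_mul, map_inv]; exact z4 _ (mS.2 r) _ (mS.2 ht) e⟩
    have : t * t = r' * r' * (r'⁻¹ * t * (r'⁻¹ * t)) := by
      calc _ = r' * (r'⁻¹ * t * r') * (r'⁻¹ * t) := by group
        _ = _ := by rw [← VC v r' r]; group
    rw [this, mul_mem_cancel_right ((mul _ v _ v).2 Iff.rfl)]
  have lt : 4 * Nat.card (Om (S.map π)) < Nat.card (S.map π) := by
    have : 0 < Nat.card (Om (S.map π)) := Nat.card_pos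
    omega
  obtain ⟨_, ⟨s, hs, rfl⟩, s1, -⟩ := avoid lt 1 1 1 1
  obtain ⟨_, ⟨t, ht, rfl⟩, t1, t2, -⟩ := avoid lt 1 (π s) 1 1
  obtain ⟨_, ⟨w, hw, rfl⟩, w1, w2, w3, w4⟩ := avoid lt 1 (π s) (π t) (π s * π t)
  simp only [one_mul, ← map_mul, mul_assoc] at s1 t1 t2 w1 w2 w3 w4
  by_cases q : s * s ∈ N
  · have all : ∀ x ∈ S, x * x ∈ N := fun x hx => by
      by_cases e : x ∈ V
      exacts [(mul _ e _ e).2 Iff.rfl, (cst s hs s1 x hx e).1 q]
    refine ZN fun z hz => ((commutator_le.2 fun x hx y hy => ?_ : ⁅S, S⁆ ≤ N)) (CL.Transfer.mem_of_pow_mem_of_coprime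
      (CL.Transfer.pow_index_mem_commutator_of_center S (ZS hz) (hq.1.commutator_eq_top ▸ mem_top z) hz) ?_)
    · have := all _ (mul_mem (inv_mem hx) hy)
      rwa [id1, mul_mem_cancel_right (all y hy), mul_mem_cancel_left (all _ (inv_mem hx)), inv_inv] at this
    · obtain ⟨k, e⟩ := Two.of_mem hZ hz
      refine Nat.Coprime.coprime_dvd_right (orderOf_dvd_of_pow_eq_one e) (Nat.Coprime.pow_right _ ?_)
      exact ((Nat.Prime.coprime_iff_not_dvd Nat.prime_two).2 (relIndex_top_right (H := S) ▸ hS.not_dvd)).symm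
  have ga : ∀ x ∈ S, x ∉ V → s * x ∉ V → ⁅s⁻¹, x⁆ ∉ N := fun x hx x1 x2 k => by
    have a1 := (cst s hs s1 x hx x1).not.1 q
    refine (cst s hs s1 _ (mul_mem hs hx) x2).not.1 q ?_
    rw [id1, mul _ (mul_mem (sq s hs) (cm s hs x hx)) _ (sq x hx), mul_mem_cancel_right k]
    exact iff_of_false q a1
  refine ga _ (mul_mem ht hw) w3 w4 ?_
  have : ⁅s⁻¹, t * w⁆ = ⁅s⁻¹, t⁆ * ⁅s⁻¹, w⁆ := by
    calc _ = ⁅s⁻¹, t⁆ * (t * ⁅s⁻¹, w⁆) * t⁻¹ := by simp only [commutatorElement_def]; group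
      _ = _ := by rw [VC (cm s hs w hw) t ht]; group
  rw [this, mul _ (cm s hs t ht) _ (cm s hs w hw)]
  exact iff_of_false (ga t ht t1 t2) (ga w hw w1 w2)

end CL.Q16
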