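/-
Project Q16: proper 2-covers whose central quotient has elementary abelian or dihedral Sylow 2-subgroups.
-/
import Cfsg.Agent.Q16.Defs
import Cfsg.Agent.Transfer.Control

set_option autoImplicit false

namespace CL.Q16

open Cfsg Subgroup CL.Even CL.Grp CL.Loc CL.Ags
open scoped commutatorElement

universe u

namespace Cov2

variable {L : Type*} [Group L]

/-- an element of the centre of a Sylow subgroup commutes with what it commutes with modulo the centre -/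
theorem comm_of [Finite L] (hZ : IsPGroup 2 (center L)) {S : Subgroup L} (hS : IsSylowIn 2 S ⊤) {a x : L}
    (ha : a ∈ 𝒞(S)) (hx : ⁅a, x⁆ ∈ center L) : ⁅a, x⁆ = 1 := by
  have m : ∀ y z : L, ⁅a, z⁆ ∈ center L → ⁅a, y * z⁆ = ⁅a, y⁆ * ⁅a, z⁆ := fun y z hz => by
    calc _ = ⁅a, y⁆ * (y * ⁅a, z⁆ * y⁻¹) := by simp only [commutatorElement_def]; group
      _ = _ := by rw [mem_center_iff.1 hz y, mul_inv_cancel_right]
  let P : Subgroup L :=
    { carrier := {y | ⁅a, y⁆ ∈ center L}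
      one_mem' := by simp
      mul_mem' := fun {y z} hy hz => by
        show ⁅a, y * z⁆ ∈ center L
        rw [m y z hz]; exact mul_mem hy hz
      inv_mem' := fun {y} hy => by
        show ⁅a, y⁻¹⁆ ∈ center L
        rw [show ⁅a, y⁻¹⁆ = y⁻¹ * ⁅a, y⁆⁻¹ * y⁻¹⁻¹ by simp only [commutatorElement_def]; group]
        exact Normal.conj_mem inferInstance _ (inv_mem hy) _ }
  let φ : P →* center L := MonoidHom.mk' (fun y => ⟨⁅a, y.1⁆, y.2⟩) fun y z => Subtype.ext (m _ _ z.2)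
  have k1 : centralizer {a} ≤ P := fun y hy => by
    show ⁅a, y⁆ ∈ center L
    rw [cmt_eq_one.2 (mem_centralizer_singleton_iff.1 hy).symm]; exact one_mem _
  have k2 : S ≤ centralizer {a} := fun s hs => mem_centralizer_singleton_iff.2 (cm_of ha hs).symm
  have k3 := (hS.of_le (k2.trans k1) le_top).not_dvd_relIndex_of_le k2 k1
  have k4 : (centralizer {a}).subgroupOf P = φ.ker := Subgroup.ext fun y => by
    rw [mem_subgroupOf, mem_centralizer_singleton_iff, MonoidHom.mem_ker, Subtype.ext_iff]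
    exact ⟨fun e => cmt_eq_one.2 e.symm, fun e => (cmt_eq_one.1 e).symm⟩
  rw [relIndex, k4, index_ker] at k3
  obtain ⟨n, hn⟩ := (hZ.to_subgroup φ.range).exists_card_eq
  have n0 : n = 0 := by_contra fun n0 => k3 (hn ▸ dvd_pow_self 2 n0)
  rw [n0, pow_zero, card_eq_one] at hn
  have k5 : φ ⟨x, hx⟩ ∈ φ.range := ⟨_, rfl⟩
  rw [hn, mem_bot] at k5
  exact congrArg Subtype.val k5

/-- the derived subgroup of a dihedral group -/
theorem der_dih {b c : L} (hb : b * b = 1) (hc : c * c = 1) :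
    ⁅closure {b, c}, closure {b, c}⁆ ≤ zpowers (b * c * (b * c)) := by
  have bi := inv_eq_of_mul_eq_one_right hb
  have e1 : b * (b * c) * b⁻¹ = (b * c)⁻¹ := by
    rw [← mul_assoc, hb, one_mul, mul_inv_rev, inv_eq_of_mul_eq_one_right hc]
  have e0 : c = (b * c) ^ (-1 : ℤ) * b := by
    rw [zpow_neg_one, mul_inv_rev, inv_mul_cancel_right, inv_eq_of_mul_eq_one_right hc]
  generalize b * c = x at e0 e1
  have e : ∀ (i : ℤ) (y : L), b * (x ^ i * y) = x ^ (-i) * (b * y) := fun i y => by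
    rw [zpow_neg, ← inv_zpow, ← e1, conj_zpow]; group
  have e' : ∀ (i : ℤ), b * x ^ i = x ^ (-i) * b := fun i => by simpa using e i 1
  have xx : ∀ (i j : ℤ) (y : L), x ^ i * (x ^ j * y) = x ^ (i + j) * y := fun i j y => by rw [zpow_add, mul_assoc]
  have nf : ∀ d ∈ closure {b, c}, ∃ i : ℤ, d = x ^ i ∨ d = x ^ i * b := fun d hd => by
    induction hd using closure_induction with
    | mem y hy =>
      rcases hy with rfl | rfl
      · exact ⟨0, .inr (by simp)⟩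
      · exact ⟨-1, .inr e0⟩
    | one => exact ⟨0, .inl (by simp)⟩
    | mul y z _ _ hy hz =>
      obtain ⟨i, rfl | rfl⟩ := hy <;> obtain ⟨j, rfl | rfl⟩ := hz
      · exact ⟨i + j, .inl (zpow_add _ _ _).symm⟩
      · exact ⟨i + j, .inr (xx _ _ _)⟩
      · exact ⟨i + -j, .inr (by rw [mul_assoc, e', xx])⟩
      · exact ⟨i + -j, .inl (by rw [mul_assoc, e, hb, mul_one, zpow_add])⟩
    | inv y _ hy =>
      obtain ⟨i, rfl | rfl⟩ := hy
      · exact ⟨-i, .inl (zpow_neg _ _).symm⟩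
      · exact ⟨i, .inr (by rw [mul_inv_rev, bi, ← zpow_neg, e', neg_neg])⟩
  have k : ∀ i j : ℤ, j = 2 * i → x ^ j ∈ zpowers (x * x) := fun i j h =>
    ⟨i, by rw [h, zpow_mul, zpow_two]⟩
  refine commutator_le.2 fun s hs t ht => ?_
  obtain ⟨i, rfl | rfl⟩ := nf s hs <;> obtain ⟨j, rfl | rfl⟩ := nf t ht <;>
    simp only [commutatorElement_def, mul_inv_rev, bi, ← zpow_neg, mul_assoc, e, e', xx, hb, mul_one, ← zpow_add]
  · exact k 0 _ (by ring)
  · exact k i _ (by ring)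
  · exact k (-j) _ (by ring)
  · exact k (i - j) _ (by ring)

end Cov2

open Cov2

theorem covS2 : CovS2.{u} := by
  intro L _ _ hq hZ Z1 na S hS sh a0 ⟨a0S, a0C⟩
  by_contra a0Z
  set π := QuotientGroup.mk' (center L) with hπ
  have ker : ∀ {x : L}, π x = 1 ↔ x ∈ center L := fun {x} => QuotientGroup.eq_one_iff x
  have eqv : ∀ {x y : L}, π x = π y → x⁻¹ * y ∈ center L := fun e => QuotientGroup.eq.1 e
  have sur : ∀ y, ∃ x, π x = y := QuotientGroup.mk'_surjective _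
  have ZS : center L ≤ S := hS.le_of_normalized hZ le_top (normalizer_eq_top (center L)).ge
  have ZD : center L ≤ ⁅S, S⁆ := fun z hz => by
    obtain ⟨k, hk⟩ := IsPGroup.iff_orderOf.1 hZ ⟨z, hz⟩
    refine CL.Transfer.mem_of_pow_mem_of_coprime (CL.Transfer.pow_index_mem_commutator_of_center S (ZS hz)
      (hq.1.commutator_eq_top ▸ mem_top z) hz) ?_
    rw [← orderOf_coe] at hk
    rw [hk]
    exact ((Nat.prime_two.coprime_iff_not_dvd.2 (relIndex_top_right S ▸ hS.not_dvd)).symm).pow_right k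
  obtain ⟨n, ia⟩ := Two.exists_inv (Two.of_mem (hS.isPGroup.map π) ⟨a0, a0S, rfl⟩) (mt ker.1 a0Z)
  rw [← map_pow] at ia
  have aC := pow_mem a0C n
  generalize a0 ^ n = a at ia aC
  have a2 : a * a ∈ center L := ker.1 (by rw [map_mul, ia.1])
  have key : ∀ b, Ags.Inv (π b) → ∃ g, ∃ ζ ∈ center L, b = g * a * g⁻¹ * ζ := fun b ib => by
    obtain ⟨c, hc⟩ := isConj_iff.1 (na.one _ _ ia ib)
    obtain ⟨g, rfl⟩ := sur c
    exact ⟨g, _, eqv (by rw [map_mul, map_mul, map_inv, hc]), (mul_inv_cancel_left _ _).symm⟩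
  have star : ∀ b x, Ags.Inv (π b) → Commute (π b) (π x) → Commute b x := fun b x ib c => by
    obtain ⟨g, ζ, hζ, e⟩ := key b ib
    have e1 : ⁅a, g⁻¹ * x * g⁆ = g⁻¹ * ⁅b, x⁆ * g⁻¹⁻¹ := by
      rw [e, commutatorElement_def _ x, mul_assoc _ ζ, ← mem_center_iff.1 hζ x, commutatorElement_def]; group
    have e2 := comm_of hZ hS aC (e1 ▸ Normal.conj_mem inferInstance _
      (ker.1 (by rw [map_commutatorElement, cmt_eq_one.2 c])) _)
    rw [e1, conj_eq_one_iff] at e2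
    exact cmt_eq_one.1 e2
  rcases sh with sh | ⟨b', c', hb', hc', sh⟩
  · refine Z1 (le_bot_iff.1 (ZD.trans (commutator_le.2 fun s hs t ht => mem_bot.2 (cmt_eq_one.2 ?_))))
    by_cases s1 : π s = 1
    · exact (mem_center_iff.1 (ker.1 s1) t).symm
    have i : ∀ x ∈ S, (π x)⁻¹ = π x := fun x hx => inv_eq_of_mul_eq_one_right (sh _ ⟨x, hx, rfl⟩)
    refine star s t ⟨sh _ ⟨s, hs, rfl⟩, s1⟩ ?_
    have := i _ (mul_mem hs ht)
    rw [map_mul, mul_inv_rev, i s hs, i t ht] at this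
    exact this.symm
  have sq : ∀ b, Ags.Inv (π b) → ∃ ζ ∈ center L, b * b = a * a * (ζ * ζ) := fun b ib => by
    obtain ⟨g, ζ, hζ, rfl⟩ := key b ib
    refine ⟨ζ, hζ, ?_⟩
    rw [← Commute.mul_mul_mul_comm (show Commute ζ (g * a * g⁻¹) from (mem_center_iff.1 hζ _).symm).symm, conj_mul,
      mem_center_iff.1 a2 g, mul_inv_cancel_right]
  have sqm : ∀ ζ ∈ center L, ∀ y : L, y * ζ * (y * ζ) = y * y * (ζ * ζ) := fun ζ hζ y =>
    Commute.mul_mul_mul_comm (show Commute ζ y from (mem_center_iff.1 hζ _).symm) _ _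
  obtain ⟨α, hα, ea⟩ : ∃ α ∈ center L, a * a = α * α := by
    obtain ⟨v', -, w', -, iv, iw, ne, c⟩ := na.four
    obtain ⟨v, rfl⟩ := sur v'
    obtain ⟨w, rfl⟩ := sur w'
    obtain ⟨ζ₁, h1, e1⟩ := sq v iv
    obtain ⟨ζ₂, h2, e2⟩ := sq w iw
    obtain ⟨ζ₃, h3, e3⟩ := sq (v * w) ⟨by rw [map_mul, c.symm.mul_mul_mul_comm, iv.1, iw.1, mul_one], fun e =>
      ne (by rw [map_mul] at e; rw [eq_inv_of_mul_eq_one_left e, iw.inv_eq])⟩
    rw [(star v w iv c).symm.mul_mul_mul_comm, e1, e2, mul_assoc, mul_right_inj] at e3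
    refine ⟨ζ₃ * (ζ₁ * ζ₂)⁻¹, mul_mem h3 (inv_mem (mul_mem h1 h2)), ?_⟩
    rw [sqm _ (inv_mem (mul_mem h1 h2)), ← mul_inv_rev, sqm _ h2, ← e3, ← mul_assoc (ζ₁ * ζ₁),
      mem_center_iff.1 a2, mul_assoc (a * a), mul_inv_cancel_right]
  have ss : ∀ y : L, y * y ∈ center L → ∃ ζ ∈ center L, y * y = ζ * ζ := fun y hy => by
    by_cases y1 : π y = 1
    · exact ⟨y, ker.1 y1, rfl⟩
    obtain ⟨ζ, hζ, e⟩ := sq y ⟨by rw [← map_mul, ker.2 hy], y1⟩
    exact ⟨α * ζ, mul_mem hα hζ, by rw [e, ea, sqm ζ hζ]⟩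
  have lift : ∀ y ∈ S.map π, y * y = 1 → ∃ x ∈ S, π x = y ∧ x * x = 1 := by
    rintro _ ⟨x, hx, rfl⟩ e
    obtain ⟨ζ, hζ, e'⟩ := ss x (ker.1 (by rw [map_mul, e]))
    exact ⟨x * ζ⁻¹, mul_mem hx (ZS (inv_mem hζ)), by rw [map_mul, ker.2 (inv_mem hζ), mul_one],
      by rw [sqm _ (inv_mem hζ), e', ← mul_inv_rev, mul_inv_cancel]⟩
  obtain ⟨b, bS, rfl, hb⟩ := lift b' (sh ▸ subset_closure (.inl rfl)) hb'
  obtain ⟨c, cS, rfl, hc⟩ := lift c' (sh ▸ subset_closure (.inr rfl)) hc'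
  have le : S ≤ closure {b, c} ⊔ center L := fun s hs => by
    have : π s ∈ (closure {b, c}).map π := by
      rw [MonoidHom.map_closure, Set.image_pair, ← sh]; exact ⟨s, hs, rfl⟩
    obtain ⟨d, hd, e⟩ := this
    simpa using mul_mem (mem_sup_left hd) (mem_sup_right (eqv e))
  have dl := (commutator_le_of_le_sup_centralizer ((closure_le _).2 (Set.pair_subset bS cS))
    (center_le_centralizer _) le).trans (der_dih hb hc)
  have su : Function.Surjective fun ζ : center L => ζ * ζ := fun ζ => by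
    obtain ⟨k, hk⟩ := dl (ZD ζ.2)
    have hk' : (b * c) ^ k * (b * c) ^ k = ζ := by rw [← (Commute.refl _).mul_zpow]; exact hk
    obtain ⟨η, hη, e⟩ := ss _ (hk' ▸ ζ.2)
    exact ⟨⟨η, hη⟩, Subtype.ext (e.symm.trans hk')⟩
  obtain ⟨y, hy, iy⟩ := exists_inv_of_isP hZ Z1
  exact iy.2 (congrArg Subtype.val (Finite.injective_iff_surjective.2 su
    (a₁ := ⟨y, hy⟩) (a₂ := 1) (Subtype.ext (iy.1.trans (mul_one _).symm))))

end CL.Q16
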