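/-
Project Q16: `L₁` is not a diagonal subgroup.
-/
import Cfsg.Agent.Q16.Defs
import Cfsg.Agent.Loc.Diagonal
import Cfsg.Agent.Loc.Bal1

set_option autoImplicit false

namespace CL.Q16

open Cfsg Subgroup CL.Even CL.Grp CL.Loc CL.Ags
open scoped commutatorElement

universe u

theorem dg : Dg.{u} := by
  intro G _ _ T L₁ L₂ z u h y hy K hK hne hL
  have cp : ∀ x : G, Commute x y → IsCompIn (cj x K) (Ce y) := fun x hx =>
    hK.conj_smul_of_mem_normalizer (le_normalizer (mem_centralizer_singleton_iff.2 hx.eq))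
  have hK' := cp z (cm_of h.zc hy.1)
  have hKK : ⁅K, cj z K⁆ = ⊥ := (hK.eq_or_commutator_eq_bot hK').resolve_left hne.symm
  have NC : ¬ K ≤ 𝒞(L₁) := fun e => IsQuasisimple.not_le_centralizer hK.2
    ((le_inf le_rfl (hL ▸ e)).trans (inf_centralizer_diagSub_le hKK))
  have hKc : cj z K ≤ 𝒞(K) := cent_symm (le_cent_iff.2 hKK)
  have Lsup : L₁ ≤ K ⊔ cj z K := hL ▸ diagSub_le_sup
  have LN : L₁ ≤ 𝒩(K) := Lsup.trans (sup_le le_normalizer (hKc.trans (cent_le_norm K)))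
  have zL : z ∈ 𝒞(L₁) := mc_iff.2 fun l hl => (show Commute l z from mem_centralizer_singleton_iff.1 (h.c1.le hl)).symm
  have zT : z ∈ T ⊓ 𝒩(L₁) := ⟨h.zT, cent_le_norm _ zL⟩
  have zC : z ∈ 𝒞(T ⊓ 𝒩(L₁)) := mc_iff.2 fun t ht => cm_of h.zc ht.1
  obtain ⟨a, ha, -, -, ia, -⟩ := h.q2.four
  obtain ⟨i, hi, ii, iC⟩ := exists_inv_cent (U := T ⊓ 𝒩(L₁)) (h.syl.isPGroup.to_inf_left) (h.nn.le.trans inf_le_right)
    ha ia
  have iL : i ∈ 𝒞(L₁) := cent_symm (le_cent_iff.2 ((h.c1.eq_or_commutator_eq_bot h.c2).resolve_left h.ne)) hi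
  have hKi := cp i (cm_of iC hy)
  obtain ⟨e, eN, ie, eC, eL⟩ : ∃ e ∈ 𝒩(K), Ags.Inv e ∧ e ∈ 𝒞(T ⊓ 𝒩(L₁)) ∧ e ∈ 𝒞(L₁) := by
    rcases hKi.eq_or_commutator_eq_bot hK with e1 | e1
    · exact ⟨i, cj_eq_iff_mem.1 e1, ii, iC, iL⟩
    rcases hKi.eq_or_commutator_eq_bot hK' with e2 | e2
    · refine ⟨z * i, cj_eq_iff_mem.1 (by rw [cj_mul, e2, ← cj_mul, h.iz.1, cj_one]), ⟨?_, fun e => hne ?_⟩,
        mul_mem zC iC, mul_mem zL iL⟩
      · rw [mul_assoc, ← mul_assoc i, (cm_of iC zT).eq, mul_assoc, ii.1, mul_one, h.iz.1]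
      · have h1 : z ∈ L₂ := eq_inv_of_mul_eq_one_left e ▸ inv_mem hi
        have h2 := conj_mem_cj u h1
        rw [h.e2, ← (cm_of h.zc h.uT).eq, mul_inv_cancel_right] at h2
        exact cj_eq (LN h2)
    · refine absurd ?_ NC
      have h1 : cj i K ≤ 𝒞(L₁) := cent_symm (Lsup.trans (sup_le (cent_symm (le_cent_iff.2 e1))
        (cent_symm (le_cent_iff.2 e2))))
      rwa [cj_le_iff, cj_cent, cj_eq_of_mem_cent (inv_mem iL)] at h1
  have hY := (h.i1 e ie eC eL).2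
  have KL : K ≤ L₁ ⊔ 𝒞(K) := fun l hl => by
    rw [show l = l * (z * l * z⁻¹) * (z * l * z⁻¹)⁻¹ by group]
    exact mul_mem (mem_sup_left (hL ▸ mem_diagSub hl)) (mem_sup_right (inv_mem (hKc (conj_mem_cj z hl))))
  have eK : e ∈ 𝒞(K) := le_cent_of_le_sup_cent hK.commutator_self (zpowers_le.2 eN) (zpowers_le.2 eL) KL LN
    (mem_zpowers e)
  rcases hY.le_or_commutator_eq_bot_of_le_normalizer (X := K)
    (fun k hk => mem_centralizer_singleton_iff.2 (cm_of eK hk).symm.eq) LN with e1 | e1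
  · refine hne (hK'.eq_of_le hK.2 ?_ hK.le)
    rintro _ ⟨l, hl, rfl⟩
    exact (mul_mem_cancel_left hl).1 (e1 (hL ▸ mem_diagSub hl))
  · exact NC (cent_symm (le_cent_iff.2 e1))

end CL.Q16
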