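/-
Project Q16, job KALL: the facts `NA` for the groups of `QT.CycList` which satisfy `LK`.
-/
import Cfsg.Agent.Q16.Defs
import Cfsg.Agent.S2131
import Cfsg.Agent.K.Inv0
import Cfsg.Agent.Cls.SL2Sub

set_option autoImplicit false

namespace CL.Q16

open Cfsg Subgroup CL.Even CL.Grp CL.Loc CL.Ags

universe u

namespace KAllH

/-- `2 × A₅` does not have characteristic 2 -/
theorem not_char {C : Type*} [Group C] (e : C ≃* Multiplicative (ZMod 2) × alternatingGroup (Fin 5)) :
    ¬ centralizer (pCore 2 C : Set C) ≤ pCore 2 C := by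
  intro h
  let f : C →* alternatingGroup (Fin 5) := (MonoidHom.snd _ _).comp e.toMonoidHom
  have hf : Function.Surjective f := Prod.snd_surjective.comp e.surjective
  have hn : ¬ IsPGroup 2 (⊤ : Subgroup (alternatingGroup (Fin 5))) := fun hp => by
    obtain ⟨k, hk⟩ := hp.exists_card_eq
    rw [card_top, nat_card_alternatingGroup] at hk
    have h3 : 3 ∣ 2 ^ k := by rw [← hk]; simp [Nat.factorial]
    exact absurd (Nat.prime_three.dvd_of_dvd_pow h3) (by norm_num)
  have h1 : pCore 2 (alternatingGroup (Fin 5)) = ⊥ :=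
    (IsSimpleGroup.eq_bot_or_eq_top_of_normal _ inferInstance).resolve_right fun a => hn (a ▸ pCore_isP)
  have h2 : (⊤ : Subgroup C) ≤ pCore 2 C := by
    refine le_trans (fun x _ => mem_centralizer_iff.2 fun y hy => e.injective ?_) h
    have h3 : (e y).2 = 1 := mem_bot.1 (h1 ▸ map_pCore_le_of_surjective (p := 2) hf (mem_map_of_mem f hy))
    rw [map_mul, map_mul]
    exact Prod.ext (mul_comm _ _) (by simp [h3])
  have h4 := (pCore_isP.to_le h2).map f
  rw [map_top_of_surjective f hf] at h4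
  exact hn h4

theorem not_j1 {K : Type u} [Group K] (e : K ≃* Spor.J1) : ¬ LK K := by
  intro h
  obtain ⟨t, ht, ⟨f⟩⟩ := Cfsg.Agent.S2131.result
  have g := (CL.IV.centEquiv e.symm t).symm.trans f
  have hc : Nat.card (centralizer ({e.symm t} : Set K)) = 120 := by
    rw [Nat.card_congr g.toEquiv, Nat.card_prod, Nat.card_congr Multiplicative.toAdd, Nat.card_zmod,
      nat_card_alternatingGroup]
    simp [Nat.factorial]
  rcases h (e.symm t) (by rw [e.symm.orderOf_eq, ht]) with a | a | a | a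
  · exact not_char g (isCharP_iff.1 a)
  all_goals omega

end KAllH

open KAllH in
theorem naAll (c : NACongr.{u}) (h1 : NAEven) (h2 : NASz.{u}) (h3 : NAOdd1) (h4 : NAOdd2) (h5 : NAOdd3) :
    NAAll.{u} := by
  intro K _ _ hs hK h hL
  have key : ∀ (F : Type) [Field F] [Fintype F], Nonempty (K ≃* Matrix.ProjectiveSpecialLinearGroup (Fin 2) F) →
      4 ≤ Fintype.card F := fun F _ _ ⟨e⟩ => by
    refine not_lt.1 fun hlt => hK ?_
    have := CL.SL2.isSolvable_psl (F := F) (by omega)
    exact ⟨⟨IsSimpleGroup.comm_iff_isSolvable.2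
      (Group.isSolvable_of_isSolvable_injective (f := e.toMonoidHom) e.injective)⟩⟩
  rcases h with ⟨F, _, _, _, e⟩ | h | ⟨F, _, _, hp, -, e⟩ | ⟨⟨e⟩⟩
  · exact c K _ e (h1 F (key F e))
  · exact h2 K h hs hK
  · have h6 : 5 ≤ Fintype.card F := by
      have := key F e
      have h7 : Fintype.card F ≠ 4 := fun a => by rw [a] at hp; exact absurd hp (by norm_num)
      omega
    obtain ⟨a1, a2, a3, a4⟩ := h3 F hp h6
    exact c K _ e ⟨a1, a2, a3, h5 F hp h6 (h4 F hp h6), Or.inr (h4 F hp h6), a4⟩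
  · exact (not_j1 e hL).elim

end CL.Q16
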