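/-
Project Q16, job KO1: `L₂(p)`, one class of involutions, four-groups, outer automorphisms, Sylow 2-subgroups.
-/
import Cfsg.Agent.Q16.Defs
import Cfsg.Agent.GW.PslC
import Cfsg.Agent.Known.GLLang

set_option autoImplicit false

namespace CL.Q16

open Cfsg Subgroup CL.Even CL.Grp CL.Loc CL.Ags
open scoped MatrixGroups

namespace KO1

/-- a 2-subgroup with a four-group inside a dihedral involution centraliser is generated by two involutions -/
theorem ed_of_rot {K : Type*} [Group K] [Finite K] {U : Subgroup K} {v c w : K}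
    (h : CL.GW.Psl.Rot ⊤ ⊤ v c w) (hv : v ∈ 𝒞(U)) (h4 : Four U) : EDSyl U := by
  have hc : ∀ y ∈ U, y * v = v * y := fun y hy => (cm_of hv hy).symm.eq
  have hvc : v ∈ zpowers c := h.v_mem (mem_top v)
  obtain ⟨b, hb, hbc⟩ : ∃ b ∈ U, b ∉ zpowers c := by
    by_contra hn
    push Not at hn
    obtain ⟨a, ha, b, hb, ia, ib, ne, -⟩ := h4
    have h1 := (CL.Inv.BSW.eq_of_sq_of_zpowers h.hv hvc (hn a ha) ia.1).resolve_left ia.2
    have h2 := (CL.Inv.BSW.eq_of_sq_of_zpowers h.hv hvc (hn b hb) ib.1).resolve_left ib.2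
    exact ne (h1.trans h2.symm)
  have hcyc : IsCyclic (U ⊓ zpowers c : Subgroup K) := isCyclic_of_le inf_le_right
  obtain ⟨x, hx⟩ := (Subgroup.isCyclic_iff_exists_zpowers_eq_top _).1 hcyc
  have hxm : x ∈ U ⊓ zpowers c := hx ▸ mem_zpowers x
  have sq : ∀ y ∈ U, y ∉ zpowers c → y * y = 1 := fun y hy hn =>
    (h.mem_or_sq (mem_top y) (hc y hy)).resolve_left hn
  have bb := sq b hb hbc
  have hbx : b * x ∉ zpowers c := fun e => hbc ((mul_mem_cancel_right (mem_inf.1 hxm).2).1 e)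
  refine Or.inr ⟨b, b * x, bb, sq _ (mul_mem hb hxm.1) hbx, le_antisymm (fun y hy => ?_) ?_⟩
  · have hbC : b ∈ closure ({b, b * x} : Set K) := subset_closure (by simp)
    have hxC : x ∈ closure ({b, b * x} : Set K) :=
      (mul_mem_cancel_left hbC).1 (subset_closure (by simp))
    have hle : U ⊓ zpowers c ≤ closure ({b, b * x} : Set K) := hx ▸ zpowers_le.2 hxC
    by_cases hyc : y ∈ zpowers c
    · exact hle ⟨hy, hyc⟩
    · have h1 := (h.cent b (mem_top b) (hc b hb)).resolve_left hbc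
      have h2 := (h.cent y (mem_top y) (hc y hy)).resolve_left hyc
      have h3 : b * y = b * w * (y * w)⁻¹ := by
        rw [mul_inv_rev, inv_eq_of_mul_eq_one_right (sq y hy hyc), mul_assoc, mul_inv_cancel_left]
      exact (mul_mem_cancel_left hbC).1 (hle (mem_inf.2 ⟨mul_mem hb hy, h3 ▸ mul_mem h1 (inv_mem h2)⟩))
  · rw [closure_le]
    rintro y (rfl | rfl)
    exacts [hb, mul_mem hb hxm.1]

end KO1

theorem naOdd1 : NAOdd1 := by
  intro F _ _ hp h5
  have hodd : Odd (Fintype.card F) := hp.odd_of_ne_two (by omega)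
  have h2 := CL.GW.Psl.two_ne_zero_of_odd hodd
  have h4 : Four (⊤ : Subgroup PSL(2, F)) := by
    obtain ⟨a, b, hab⟩ := CL.SL2.exists_qpair_of_finite (F := F)
    have h := hab.cpair h2
    exact ⟨_, mem_top _, _, mem_top _, ⟨h.sq_left, h.left_ne⟩, ⟨h.sq_right, h.right_ne⟩, h.ne, h.comm.symm⟩
  refine ⟨fun a b ia ib => CL.SL2.psl_isConj_of_orderOf_two h2 (inv_iff.1 ia) (inv_iff.1 ib), h4,
    fun D _ => ?_, fun U hU => Or.inr ?_⟩
  · have := Fact.mk hp
    have hs : Subsingleton (F ≃+* F) :=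
      (Nat.card_eq_one_iff_unique.1 (CL.GLn.card_ringAut (p := Fintype.card F) (f := 1) (pow_one _).symm)).1
    have hall : ∀ α : MulAut PSL(2, F), ∃ γ, α = CL.GW.Psl.pglAut F γ := fun α => by
      obtain ⟨g, σ, rfl⟩ := CL.GLn.aut_psl_two α
      exact ⟨_, by rw [Subsingleton.elim σ 1, map_one, mul_one, CL.GW.Psl.pglAut_mk]⟩
    have hin : ∀ γ ∈ CL.SL2.pslR F, ∃ k : PSL(2, F), CL.GW.Psl.pglAut F γ = MulAut.conj k := by
      rintro _ ⟨k, rfl⟩
      exact ⟨k, CL.GW.Psl.pglAut_toPGL k⟩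
    by_cases hD : ∀ s ∈ D, ∃ k : PSL(2, F), s = MulAut.conj k
    · refine ⟨1, one_mem D, fun s hs => ?_⟩
      obtain ⟨k, hk⟩ := hD s hs
      exact ⟨0, k, by rw [zpow_zero, inv_one, one_mul, hk]⟩
    · push Not at hD
      obtain ⟨w, hw, hw'⟩ := hD
      refine ⟨w, hw, fun s _ => ?_⟩
      obtain ⟨γ, rfl⟩ := hall w
      obtain ⟨δ, rfl⟩ := hall s
      have hγ : γ⁻¹ ∉ CL.SL2.pslR F := fun e => by
        obtain ⟨k, hk⟩ := hin γ (inv_mem_iff.1 e)
        exact hw' k hk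
      by_cases hδ : δ ∈ CL.SL2.pslR F
      · obtain ⟨k, hk⟩ := hin δ hδ
        exact ⟨0, k, by rw [zpow_zero, inv_one, one_mul, hk]⟩
      · obtain ⟨k, hk⟩ := hin _ (CL.GW.Psl.mul_mem_pslR hodd hγ hδ)
        exact ⟨1, k, by rw [zpow_one, ← hk, map_mul, map_inv]⟩
  · have hU4 := h4.syl hU
    obtain ⟨a, ha, -, -, ia, -⟩ := id hU4
    obtain ⟨v, -, iv, hv⟩ := exists_inv_cent (K := U) hU.isPGroup le_normalizer ha ia
    obtain ⟨ε, hε, he⟩ : ∃ ε : ℤ, (ε = 1 ∨ ε = -1) ∧ 4 ∣ (Fintype.card F : ℤ) - ε := by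
      obtain ⟨k, hk⟩ := hodd
      rcases Nat.even_or_odd' k with ⟨j, rfl | rfl⟩
      · exact ⟨1, Or.inl rfl, by omega⟩
      · exact ⟨-1, Or.inr rfl, by omega⟩
    have hinj := Matrix.ProjectiveSpecialLinearGroup.toPGL_injective (n := Fin 2) (R := F)
    obtain ⟨c, w, h, -⟩ := CL.GW.Psl.exists_rot_pgl hodd (by omega) hε he
      (v := Matrix.ProjectiveSpecialLinearGroup.toPGL v) (by rw [orderOf_injective _ hinj]; exact inv_iff.1 iv)
    obtain ⟨c, rfl⟩ := h.c_mem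
    obtain ⟨w, rfl⟩ := h.w_mem
    rw [CL.SL2.pslR, MonoidHom.range_eq_map] at h
    exact KO1.ed_of_rot (CL.GW.Psl.Rot.of_map hinj h le_rfl le_top) hv hU4

end CL.Q16
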