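/-
Project Q16: the facts `NA` for the Suzuki groups.
-/
import Cfsg.Agent.Q16.Defs
import Cfsg.Agent.Chev.SzCard
import Cfsg.Agent.Chev.SzInst
import Cfsg.Agent.S2126

set_option autoImplicit false

namespace CL.Q16

open Cfsg Subgroup CL.Even CL.Grp CL.Loc CL.Ags
open scoped commutatorElement

universe u

namespace KS

open CL.Chev.Sz

variable {K : Type*} [Group K] {F : Type*} [Field F]

theorem inner [Finite K] (h : Odd (Nat.card (Out K))) {α : MulAut K} {n : ℕ} (hα : α ^ 2 ^ n = 1) :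
    ∃ k : K, α = MulAut.conj k := by
  have h1 : orderOf (QuotientGroup.mk α : Out K) ∣ 2 ^ n :=
    orderOf_dvd_of_pow_eq_one (by rw [← QuotientGroup.mk_pow, hα, QuotientGroup.mk_one])
  have h2 := orderOf_eq_one_iff.1 (Nat.eq_one_of_dvd_coprimes
    (Nat.Coprime.pow_left n (Nat.coprime_two_left.2 h)) h1 (orderOf_dvd_natCard _))
  obtain ⟨k, hk⟩ := (QuotientGroup.eq_one_iff α).1 h2
  exact ⟨k, hk.symm⟩

theorem card_out {K' : Type*} [Group K'] (e : K ≃* K') : Nat.card (Out K) = Nat.card (Out K') := by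
  have he : (Inn K).map (MulAut.congr e : MulAut K →* MulAut K') = Inn K' := by
    apply le_antisymm
    · rintro _ ⟨_, ⟨g, rfl⟩, rfl⟩
      exact ⟨e g, by ext; simp [MulAut.congr]⟩
    · rintro _ ⟨g, rfl⟩
      exact ⟨_, ⟨e.symm g, rfl⟩, by ext; simp [MulAut.congr]⟩
  exact Nat.card_congr (QuotientGroup.congr _ _ (MulAut.congr e) he).toEquiv

theorem zero_of_sq (M : Model K F) {a b : F} (h : M.T a b * M.T a b = 1) : a = 0 := by
  rw [M.T_sq, M.T_eq_one] at h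
  exact M.toTits.σ_mul_self_inj (by rw [h.2, mul_zero])

theorem cen (M : Model K F) : ∀ a ∈ M.U, a * a = 1 → a ∈ 𝒞(M.U) := by
  rintro _ ⟨a, b, rfl⟩ h
  obtain rfl := zero_of_sq M h
  refine mc_iff.2 ?_
  rintro _ ⟨a', b', rfl⟩
  rw [Commute, SemiconjBy, M.T_zero_mul_T, M.T_mul_T_zero, add_comm]

theorem ic (M : Model K F) : IC M.U := fun a ha _ hb h _ => cm_of (cen M a ha h) hb

theorem szSyl [Finite F] (M : Model K F) (h8 : 8 ≤ Nat.card F) : SzSyl M.U := by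
  refine ⟨cen M, ?_, ?_, ?_, ?_⟩
  · rintro _ ⟨a, b, rfl⟩
    rw [M.T_sq, M.T_zero_sq]
  · rintro _ ⟨a, b, rfl⟩ _ ⟨a', b', rfl⟩
    rw [commutatorElement_def, M.T_commutator, M.T_zero_sq]
  · rintro _ ⟨a, b, rfl⟩ _ ⟨a', b', rfl⟩ h
    rw [M.T_sq, M.T_sq, M.T_inj] at h
    obtain rfl := M.toTits.σ_mul_self_inj h.2
    rw [M.T_inv, M.T_mul, ← two_mul a, M.two, zero_mul, M.T_zero_sq]
  · have h : Om M.U = M.Z := by
      ext x
      rw [(ic M).mem_Om]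
      refine ⟨?_, ?_⟩
      · rintro ⟨⟨a, b, rfl⟩, h⟩
        exact M.T_mem_Z_iff.2 (zero_of_sq M h)
      · rintro ⟨b, rfl⟩
        exact ⟨M.T_mem_U _ _, M.T_zero_sq b⟩
    rw [h, M.card_U, M.card_Z, pow_two]
    exact Nat.mul_le_mul_right _ h8

theorem syl [Finite K] [Finite F] (M : Model K F) {U : Subgroup K} (hU : IsSylowIn 2 U ⊤) :
    ∃ M' : Model K F, M'.U = U := by
  have : Fact (Nat.Prime 2) := ⟨Nat.prime_two⟩
  obtain ⟨P, rfl⟩ := isSylowIn_top_iff.1 hU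
  exact let ⟨g, hg⟩ := M.exists_conj_U_eq P; ⟨_, hg⟩

end KS

open KS

theorem naSz : NASz.{u} := by
  rintro K _ _ ⟨F, _, _, m, hm, hF, ⟨e⟩⟩ - -
  let M := (CL.Chev.Sz.modelLie hm hF).ofEquiv e
  have ho : Odd (Nat.card (Out K)) := by
    rw [card_out e, Cfsg.Agent.S2126.result hm hF]; exact odd_two_mul_add_one m
  have h8 : 8 ≤ Nat.card F := by
    rw [Nat.card_eq_fintype_card, hF]
    exact Nat.pow_le_pow_right (n := 2) (i := 3) (by decide) (by omega)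
  have h2 : ∀ α : MulAut K, α * α = 1 → ∃ k : K, α = MulAut.conj k := fun α h =>
    inner ho (n := 1) (by rw [pow_one, pow_two, h])
  refine ⟨fun a b ha hb => ?_, ?_, fun D hD => ⟨1, one_mem _, fun s hs => ?_⟩, fun α h _ => h2 α h,
    Or.inl fun U hU => ⟨?_, fun α h _ => h2 α h⟩, fun U hU => Or.inl ?_⟩
  · obtain ⟨g, rfl⟩ := M.exists_conj_of_involution ha.2 ha.1
    obtain ⟨k, rfl⟩ := M.exists_conj_of_involution hb.2 hb.1
    exact isConj_iff.2 ⟨k * g⁻¹, by group⟩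
  · obtain ⟨c, hc⟩ := M.toTits.exists_unit_ne_one
    refine ⟨M.T 0 1, trivial, M.T 0 c, trivial, ⟨M.T_zero_sq _, fun h => one_ne_zero (M.T_eq_one.1 h).2⟩,
      ⟨M.T_zero_sq _, fun h => c.ne_zero (M.T_eq_one.1 h).2⟩, fun h => hc (Units.ext (M.T_inj.1 h).2.symm), ?_⟩
    rw [Commute, SemiconjBy, M.T_zero_mul_T, M.T_zero_mul_T, add_comm]
  · obtain ⟨n, hn⟩ := hD ⟨s, hs⟩
    obtain ⟨k, hk⟩ := inner ho (n := n) (congrArg Subtype.val hn)
    exact ⟨0, k, by rw [zpow_zero, inv_one, one_mul]; exact hk⟩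
  · obtain ⟨M', rfl⟩ := syl M hU
    exact ic M'
  · obtain ⟨M', rfl⟩ := syl M hU
    exact szSyl M' h8

end CL.Q16
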