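/-
Project Q16: the core lemma for a quasisimple subgroup, from the core lemma for a simple subgroup.
-/
import Cfsg.Agent.Q16.Defs

set_option autoImplicit false
set_option linter.unusedSectionVars false

namespace CL.Q16

open Cfsg Subgroup CL.Even CL.Grp CL.Loc CL.Ags
open scoped commutatorElement

universe u

namespace Lift

theorem charP_congr {A B : Type*} [Group A] [Group B] (c : A ≃* B)
    (h : centralizer (pCore 2 B : Set B) ≤ pCore 2 B) : centralizer (pCore 2 A : Set A) ≤ pCore 2 A := by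
  intro x hx
  rw [← comap_pCore_equiv c]
  refine h (mem_centralizer_iff.2 fun y hy => ?_)
  obtain ⟨y, rfl⟩ := c.surjective y
  have hy' : y ∈ pCore 2 A := by rw [← comap_pCore_equiv c]; exact hy
  exact (map_mul c _ _).symm.trans ((congrArg c (hx y hy')).trans (map_mul c _ _))

theorem num {k a b n : ℕ} (hb : Odd b) (h : 2 ^ k ∣ a * b) (hn : 4 * a ∣ n) : 4 * 2 ^ k ∣ n :=
  (Nat.mul_dvd_mul_left 4 (((Nat.coprime_two_left.2 hb).pow_left k).dvd_of_dvd_mul_right h)).trans hn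

theorem ev_of_lk {Γ Y : Type*} [Group Γ] [Finite Γ] [Group Y] {X : Subgroup Γ} (e : X ≃* Y) (h : LK Y) : EV X := by
  intro r hr ir
  have := Fact.mk Nat.prime_two
  have ho : orderOf (e ⟨r, hr⟩) = 2 := orderOf_eq_prime
    (by rw [← map_pow, pow_two, show (⟨r, hr⟩ * ⟨r, hr⟩ : X) = 1 from Subtype.ext ir.1, map_one])
    fun h => ir.2 (congrArg Subtype.val ((map_eq_one_iff _ e.injective).1 h))
  let c : (X ⊓ Ce r : Subgroup Γ) ≃* centralizer ({e ⟨r, hr⟩} : Set Y) :=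
    { toFun := fun x => ⟨e ⟨x, x.2.1⟩, mem_centralizer_singleton_iff.2 (by
        rw [← map_mul, ← map_mul]; exact congrArg e (Subtype.ext (mem_centralizer_singleton_iff.1 x.2.2)))⟩
      invFun := fun y => ⟨e.symm y, (e.symm y).2, mem_centralizer_singleton_iff.2 (by
        have := congrArg e.symm (mem_centralizer_singleton_iff.1 y.2)
        rw [map_mul, map_mul, e.symm_apply_apply] at this
        exact congrArg Subtype.val this)⟩
      left_inv := fun x => by simp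
      right_inv := fun y => by simp
      map_mul' := fun x y => Subtype.ext (map_mul e ⟨x, x.2.1⟩ ⟨y, y.2.1⟩) }
  have k : ∀ a b : ℕ, Odd b → Nat.card (centralizer ({e ⟨r, hr⟩} : Set Y)) = a * b → 4 * a ∣ Nat.card Y →
      ∀ D : Subgroup Γ, IsPGroup 2 D → D ≤ X ⊓ Ce r → 4 * Nat.card D ∣ Nat.card X := fun a b hb h1 h2 D hD hle => by
    obtain ⟨n, hn⟩ := IsPGroup.iff_card.1 hD
    have := card_dvd_of_le hle
    rw [Nat.card_congr c.toEquiv, h1, hn] at this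
    rw [hn, Nat.card_congr e.toEquiv]
    exact num hb this h2
  rcases h _ ho with h1 | h1 | h1 | h1
  · exact .inl (isCharP_iff.2 (charP_congr c (isCharP_iff.1 h1)))
  · exact .inr (k 16 15 (by decide) h1.1 h1.2)
  · exact .inr (k 64 45 (by decide) h1.1 h1.2)
  · exact .inr (k 256 455 (by decide) h1.1 h1.2)

variable {G Γ : Type*} [Group G] [Group Γ] {N : Subgroup G} (π : N →* Γ) {Z H : Subgroup G}

/-- the image of a subgroup of `N` -/
def bar (H : Subgroup G) : Subgroup Γ := (H.subgroupOf N).map π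

theorem mem_bar {x : N} (hx : x.1 ∈ H) : π x ∈ bar π H := ⟨x, hx, rfl⟩

theorem range_eq (hH : H ≤ N) : (π.comp (inclusion hH)).range = bar π H :=
  le_antisymm (by rintro _ ⟨x, rfl⟩; exact mem_bar π x.2) (by rintro _ ⟨x, hx, rfl⟩; exact ⟨⟨x, hx⟩, rfl⟩)

theorem bar_norm {x : N} (hx : x.1 ∈ 𝒩(H)) : π x ∈ 𝒩(bar π H) :=
  le_normalizer_map π ⟨x, le_normalizer_comap N.subtype hx, rfl⟩

variable {π} (hπ : ∀ x : N, π x = 1 ↔ x.1 ∈ Z)
include hπ

theorem ker_eq (hH : H ≤ N) : (π.comp (inclusion hH)).ker = Z.subgroupOf H :=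
  Subgroup.ext fun x => hπ (inclusion hH x)

theorem card_bar (hH : H ≤ N) : Nat.card (bar π H) * Nat.card (Z.subgroupOf H) = Nat.card H := by
  rw [← range_eq π hH, ← index_ker, ker_eq hπ hH, index_mul_card]

theorem iso (hH : H ≤ N) (h : Z.subgroupOf H = center H) : Nonempty (bar π H ≃* H ⧸ center H) :=
  ⟨((MulEquiv.subgroupCongr (range_eq π hH).symm).trans (QuotientGroup.quotientKerEquivRange _).symm).trans
    (QuotientGroup.quotientMulEquivOfEq ((ker_eq hπ hH).trans h))⟩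

end Lift

open Lift in
theorem coreQ (h1 : NACongr'.{u}) (h2 : NiceOf.{u}) (h3 : Core.{u}) : CoreQ.{u} := by
  intro G _ _ K J S D z hK hZ hL zz zn hJ hA hS hD hDJ hc
  by_contra hne
  have := Fact.mk Nat.prime_two
  have JK : J ≤ K := hJ.le.trans inf_le_left
  have KN : K ≤ 𝒩(K) := le_normalizer
  have nZ : 𝒩(K) ≤ 𝒩(K ⊓ 𝒞(K)) := le_norm_inf le_rfl (le_norm_cent le_rfl)
  have := (normal_subgroupOf_iff_le_normalizer (inf_le_left.trans KN)).2 nZ
  let π := QuotientGroup.mk' ((K ⊓ 𝒞(K)).subgroupOf 𝒩(K))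
  have hπ : ∀ x : 𝒩(K), π x = 1 ↔ x.1 ∈ K ⊓ 𝒞(K) := fun x => QuotientGroup.eq_one_iff x
  obtain ⟨e⟩ := iso hπ KN (Subgroup.ext fun x => ⟨fun h => mem_center_iff.2 fun y => Subtype.ext (h.2 y y.2),
    fun h => ⟨x.2, fun y hy => congrArg Subtype.val (mem_center_iff.1 h ⟨y, hy⟩)⟩⟩)
  have := hK.2
  have ZS : K ⊓ 𝒞(K) ≤ S := hS.le_of_normalized (map_center_subtype_eq_inf K ▸ hZ.map _) inf_le_left (KN.trans nZ)
  have DK : D ≤ K := hD.trans (inf_le_left.trans hS.le)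
  refine h3 _ (bar π K) (bar π J) (bar π S) (bar π D) (π ⟨z, zn⟩) e.isSimpleGroup
    (fun h => IsQuasisimple.not_isMulCommutative_quotient hK ⟨⟨fun a b => e.symm.injective (by
      rw [map_mul, map_mul, h.is_comm.comm])⟩⟩) (ev_of_lk e hL)
    (by rw [← map_mul, show (⟨z, zn⟩ * ⟨z, zn⟩ : 𝒩(K)) = 1 from Subtype.ext zz, map_one]) (bar_norm π zn)
    (fun h => hne ?_) ?_ (fun h => h2 _ _ h ?_) ?_ ?_ ?_ ?_
  · have hz : z ∈ 𝒞(K) := cent_of_cmt (IsQuasisimple.commutator_self hK) zn fun k hk =>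
      ((hπ ⁅(⟨z, zn⟩ : 𝒩(K)), (⟨k, KN hk⟩ : 𝒩(K))⁆).1 (by
        rw [map_commutatorElement, commutatorElement_eq_one_iff_mul_comm]
        exact (h _ (mem_bar π (x := ⟨k, KN hk⟩) hk)).symm)).2
    exact hJ.eq_of_le hK JK (le_inf le_rfl fun k hk => mem_centralizer_singleton_iff.2 (hz k hk))
  · have hP : SubnIn ((K ⊓ Ce z).subgroupOf 𝒩(K)) (K.subgroupOf 𝒩(K) ⊓ (Ce (π ⟨z, zn⟩)).comap π) := by
      refine .of_le_normalizer (fun x hx => ⟨hx.1, mem_centralizer_singleton_iff.2 ?_⟩)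
        (le_normalizer_iff.2 fun p hp c hc => ⟨K.mul_mem (K.mul_mem hp.1 hc.1) (K.inv_mem hp.1), ?_⟩)
      · rw [← map_mul, ← map_mul]
        exact congrArg π (Subtype.ext (mem_centralizer_singleton_iff.1 hx.2))
      · have e1 : π p * π ⟨z, zn⟩ = π ⟨z, zn⟩ * π p := mem_centralizer_singleton_iff.1 hp.2
        have e2 := ((hπ (p⁻¹ * ⟨z, zn⟩ * p * ⟨z, zn⟩⁻¹)).1 (by
          rw [map_mul, map_mul, map_mul, map_inv, map_inv, mul_assoc _ _ (π p), ← e1]; group)).2 c.1 hc.1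
        have e3 : c.1 * z = z * c.1 := mem_centralizer_singleton_iff.1 hc.2
        change c.1 * (p.1⁻¹ * z * p.1 * z⁻¹) = p.1⁻¹ * z * p.1 * z⁻¹ * c.1 at e2
        refine mem_centralizer_singleton_iff.2 (show p.1 * c.1 * p.1⁻¹ * z = z * (p.1 * c.1 * p.1⁻¹) from ?_)
        calc p.1 * c.1 * p.1⁻¹ * z = p.1 * (c.1 * (p.1⁻¹ * z * p.1 * z⁻¹)) * z * p.1⁻¹ := by group
          _ = z * p.1 * z⁻¹ * (c.1 * z) * p.1⁻¹ := by rw [e2]; group
          _ = _ := by rw [e3]; group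
    have hJ' : IsCompIn (J.subgroupOf 𝒩(K)) (K.subgroupOf 𝒩(K) ⊓ (Ce (π ⟨z, zn⟩)).comap π) :=
      ⟨(hJ.1.comap (𝒩(K)).subtype).trans hP, (isQuasisimple_subgroupOf_iff (JK.trans KN)).2 hJ.2⟩
    have := hJ'.map π fun h => IsQuasisimple.not_le_centralizer hJ.2 fun j hj y hy =>
      ((hπ ⟨j, KN (JK hj)⟩).1 (mem_bot.1 (h ▸ mem_bar π (H := J) hj))).2 y (JK hy)
    rwa [show (K.subgroupOf 𝒩(K) ⊓ (Ce (π ⟨z, zn⟩)).comap π).map π = bar π K ⊓ Ce (π ⟨z, zn⟩) from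
      le_antisymm (by rintro _ ⟨x, hx, rfl⟩; exact ⟨⟨x, hx.1, rfl⟩, hx.2⟩)
        (by rintro _ ⟨⟨x, hx, rfl⟩, hx'⟩; exact ⟨x, ⟨hx, hx'⟩, rfl⟩)] at this
  · refine h1 _ _ (iso hπ (JK.trans KN) (Subgroup.ext fun x => ⟨fun h => mem_center_iff.2 fun y =>
      Subtype.ext (h.2 y (JK y.2)), fun hx => (hπ ⟨x, KN (JK x.2)⟩).1 (mem_bot.1 (h ▸ ⟨mem_bar π x.2, ?_⟩))⟩)) hA
    rintro _ ⟨y, hy, rfl⟩
    rw [← map_mul, ← map_mul]
    have e1 := congrArg Subtype.val (mem_center_iff.1 hx ⟨y, hy⟩)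
    exact congrArg π (Subtype.ext e1)
  · refine ⟨map_mono (comap_mono hS.le), (hS.isPGroup.comap_subtype).map π, fun hd => hS.not_dvd ?_⟩
    rw [← relIndex_subgroupOf KN]
    refine hd.trans ?_
    rw [bar, bar, ← relIndex_comap]
    exact relIndex_dvd_of_le_left _ (le_comap_map π _)
  · rintro _ ⟨x, hx, rfl⟩
    refine ⟨mem_bar π (hD hx).1, mem_centralizer_singleton_iff.2 ?_⟩
    rw [← map_mul, ← map_mul]
    exact congrArg π (Subtype.ext (mem_centralizer_singleton_iff.1 (hD hx).2))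
  · rintro _ ⟨x, hx, rfl⟩
    exact bar_norm π (hDJ hx)
  · have c1 := card_bar hπ (hS.le.trans KN)
    have c2 := card_bar hπ (DK.trans KN)
    rw [Nat.card_congr (subgroupOfEquivOfLe ZS).toEquiv] at c1
    have c3 : Nat.card ((K ⊓ 𝒞(K)).subgroupOf D) ≤ Nat.card (K ⊓ 𝒞(K) : Subgroup G) :=
      Nat.card_le_card_of_injective (fun x => ⟨x.1.1, x.2⟩) fun x y h =>
        Subtype.ext (Subtype.ext (Subtype.ext_iff.1 h :))
    refine Nat.le_of_mul_le_mul_right (c := Nat.card (K ⊓ 𝒞(K) : Subgroup G)) ?_ Nat.card_pos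
    rw [c1, mul_assoc]
    exact hc.trans (Nat.mul_le_mul_left 2 (c2 ▸ Nat.mul_le_mul_left _ c3))

end CL.Q16
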