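/-
Project Q16: the 2-rank of the automorphism group of a nice subgroup.
-/
import Cfsg.Agent.Q16.Defs

set_option autoImplicit false

namespace CL.Q16

open Cfsg Subgroup CL.Even CL.Grp CL.Loc CL.Ags
open scoped Pointwise

universe u

namespace M2a

variable {G : Type u} [Group G] {J E : Subgroup G}

theorem mem_sup_iff {x : G} : x ∈ J ⊔ 𝒞(J) ↔ ∃ j ∈ J, j⁻¹ * x ∈ 𝒞(J) := by
  refine ⟨fun h => ?_, fun ⟨j, hj, h⟩ => by simpa using mul_mem_sup hj h⟩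
  rw [← SetLike.mem_coe, coe_mul_of_right_le_normalizer_left J 𝒞(J) (centralizer_le_normalizer _)] at h
  obtain ⟨j, hj, c, hc, rfl⟩ := h
  exact ⟨j, hj, by simpa using hc⟩

theorem uniq (hJ : J ⊓ 𝒞(J) = ⊥) {e j j' : G} (hj : j ∈ J) (hj' : j' ∈ J) (h : j⁻¹ * e ∈ 𝒞(J))
    (h' : j'⁻¹ * e ∈ 𝒞(J)) : j = j' := by
  have h1 : j⁻¹ * j' ∈ J ⊓ 𝒞(J) := ⟨J.mul_mem (J.inv_mem hj) hj', by
    simpa [mul_assoc] using (𝒞(J)).mul_mem h ((𝒞(J)).inv_mem h')⟩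
  rw [hJ, mem_bot] at h1
  exact inv_mul_eq_one.1 h1

theorem comm (hJ : J ⊓ 𝒞(J) = ⊥) {s e j : G} (hs : s ∈ 𝒩(J)) (hse : Commute s e) (hj : j ∈ J)
    (h : j⁻¹ * e ∈ 𝒞(J)) : Commute s j := by
  refine mul_inv_eq_iff_eq_mul.1 (uniq hJ ((mem_normalizer_iff.1 hs j).1 hj) hj (e := e) ?_ h)
  have := (mem_normalizer_iff.1 (norm_cent hs) _).1 h
  rwa [show s * (j⁻¹ * e) * s⁻¹ = (s * j * s⁻¹)⁻¹ * (s * e * s⁻¹) by group, hse.eq, mul_inv_cancel_right] at this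

theorem inv_eq (hJ : J ⊓ 𝒞(J) = ⊥) {e j : G} (he : e ∈ 𝒩(J)) (ee : e * e = 1) (hj : j ∈ J) (h : j⁻¹ * e ∈ 𝒞(J)) :
    j⁻¹ = j := by
  refine uniq hJ (J.inv_mem hj) hj (e := e) ?_ h
  have := (𝒞(J)).inv_mem h
  rwa [mul_inv_rev, inv_eq_of_mul_eq_one_right ee, inv_inv, (comm hJ he (.refl e) hj h).eq, ← inv_inv j] at this

theorem sq (hE : IsElementaryAbelian 2 E) {e : G} (he : e ∈ E) : e * e = 1 := by rw [← pow_two, hE.2 e he]

theorem cm (hE : IsElementaryAbelian 2 E) {e s : G} (he : e ∈ E) (hs : s ∈ E) : Commute e s :=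
  cm_of (elem_le_cent hE he) hs

/-- the projection of `E ⊓ J C(J)` to `J` -/
theorem exists_V [Finite G] (hJ : J ⊓ 𝒞(J) = ⊥) (hN : E ≤ 𝒩(J)) (hE : IsElementaryAbelian 2 E) (hC : E ⊓ 𝒞(J) = ⊥) :
    ∃ V ≤ J, (∀ j ∈ V, j * j = 1) ∧ (∀ s ∈ E, ∀ j ∈ V, Commute s j) ∧ (∀ a ∈ V, ∀ b ∈ V, Commute a b) ∧
      Nat.card ↥(E ⊓ (J ⊔ 𝒞(J))) ≤ Nat.card V := by
  let V : Subgroup G :=
    { carrier := {j | j ∈ J ∧ ∃ e ∈ E, j⁻¹ * e ∈ 𝒞(J)}
      one_mem' := ⟨J.one_mem, 1, E.one_mem, by simp⟩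
      mul_mem' := by
        rintro j j' ⟨hj, e, he, h⟩ ⟨hj', e', he', h'⟩
        refine ⟨J.mul_mem hj hj', e * e', E.mul_mem he he', ?_⟩
        rw [show (j * j')⁻¹ * (e * e') = j'⁻¹ * (j⁻¹ * e) * e' by group, ← (cm_of h (J.inv_mem hj')).eq, mul_assoc]
        exact (𝒞(J)).mul_mem h h'
      inv_mem' := by
        rintro j ⟨hj, e, he, h⟩
        rw [inv_eq hJ (hN he) (sq hE he) hj h]
        exact ⟨hj, e, he, h⟩ }
  have hc : ∀ s ∈ E, ∀ j ∈ V, Commute s j := fun s hs j ⟨hj, e, he, h⟩ => comm hJ (hN hs) (cm hE hs he) hj h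
  have h2 : ∀ j ∈ V, j * j = 1 := fun j ⟨hj, e, he, h⟩ => by
    nth_rw 1 [← inv_eq hJ (hN he) (sq hE he) hj h]
    exact inv_mul_cancel j
  refine ⟨V, fun j hj => hj.1, h2, hc, fun a ha b hb => ?_, ?_⟩
  · have := inv_eq_of_mul_eq_one_right (h2 _ (V.mul_mem ha hb))
    rw [mul_inv_rev, inv_eq_of_mul_eq_one_right (h2 a ha), inv_eq_of_mul_eq_one_right (h2 b hb)] at this
    exact this.symm
  · choose f hf hf' using fun e : ↥(E ⊓ (J ⊔ 𝒞(J))) => mem_sup_iff.1 e.2.2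
    refine Nat.card_le_card_of_injective (fun e => (⟨f e, hf e, e, e.2.1, hf' e⟩ : V)) fun e e' h => ?_
    have h1 : f e = f e' := congrArg Subtype.val h
    have h3 : (e : G)⁻¹ * e' ∈ E ⊓ 𝒞(J) := ⟨E.mul_mem (E.inv_mem e.2.1) e'.2.1, by
      simpa [mul_assoc, h1] using (𝒞(J)).mul_mem ((𝒞(J)).inv_mem (hf' e)) (hf' e')⟩
    rw [hC, mem_bot] at h3
    exact Subtype.ext (inv_mul_eq_one.1 h3)

theorem exists_w [Finite G] (h : Nice0 J) (hN : E ≤ 𝒩(J)) (hE : IsElementaryAbelian 2 E) :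
    ∃ w ∈ E, (w ∈ J ⊔ 𝒞(J) → E ≤ J ⊔ 𝒞(J)) ∧ Nat.card E ≤ 2 * Nat.card ↥(E ⊓ (J ⊔ 𝒞(J))) := by
  obtain ⟨w, hw, hs⟩ := h.cyc E (isP_of_two fun x hx => two_of_sq (sq hE hx)) hN
  refine ⟨w, hw, fun hw' s hsE => ?_, ?_⟩
  · obtain ⟨i, hi⟩ := hs s hsE
    simpa using (J ⊔ 𝒞(J)).mul_mem (zpow_mem hw' i) hi
  · have h2 : ∀ k : ℤ, w ^ (2 * k) = 1 := fun k => by rw [zpow_mul, zpow_two, sq hE hw, one_zpow]
    have hsub : (E : Set G) ⊆ (E ⊓ (J ⊔ 𝒞(J)) : Subgroup G) ∪ (w * ·) '' (E ⊓ (J ⊔ 𝒞(J)) : Subgroup G) := by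
      intro s hsE
      obtain ⟨i, hi⟩ := hs s hsE
      obtain ⟨k, rfl | rfl⟩ := i.even_or_odd'
      · rw [h2, inv_one, one_mul] at hi
        exact Or.inl ⟨hsE, hi⟩
      · rw [zpow_add_one, h2, one_mul] at hi
        exact Or.inr ⟨_, ⟨E.mul_mem (E.inv_mem hw) hsE, hi⟩, by simp⟩
    have h3 := (Set.ncard_le_ncard hsub).trans (Set.ncard_union_le _ _)
    have h4 := Set.ncard_image_le (f := (w * ·)) (s := ((E ⊓ (J ⊔ 𝒞(J)) : Subgroup G) : Set G))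
    rw [← Nat.card_coe_set_eq, ← Nat.card_coe_set_eq] at h3
    rw [← Nat.card_coe_set_eq ((E ⊓ (J ⊔ 𝒞(J)) : Subgroup G) : Set G)] at h4
    simp only [SetLike.coe_sort_coe] at h3 h4
    omega

theorem card4 {a b : G} (ha : Ags.Inv a) (hb : Ags.Inv b) (hab : a ≠ b) : ({1, a, b, a * b} : Set G).ncard = 4 := by
  have h1 : a * b ≠ 1 := fun e => hab (mul_left_cancel (ha.1.trans e.symm))
  rw [Set.ncard_insert_of_notMem (by simp [ha.2.symm, hb.2.symm, h1.symm]),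
    Set.ncard_insert_of_notMem (by simp [hab, hb.2]), Set.ncard_pair (by simp [ha.2])]

theorem elem_closure {a b : G} (ha : a * a = 1) (hb : b * b = 1) (hab : Commute a b) :
    IsElementaryAbelian 2 (closure {a, b} : Subgroup G) := by
  have hcm : ∀ x ∈ ({a, b} : Set G), ∀ y ∈ ({a, b} : Set G), x * y = y * x := by
    rintro x (rfl | rfl) y (rfl | rfl)
    exacts [rfl, hab, hab.symm, rfl]
  refine ⟨isMulCommutative_closure hcm, fun x hx => ?_⟩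
  induction hx using closure_induction with
  | mem x hx => rcases hx with rfl | rfl <;> simpa [pow_two]
  | one => simp
  | mul x y hx hy h1 h2 =>
    have : Commute x y := congrArg Subtype.val ((isMulCommutative_closure hcm).is_comm.comm ⟨x, hx⟩ ⟨y, hy⟩)
    rw [this.mul_pow, h1, h2, one_mul]
  | inv x hx h1 => rw [inv_pow, h1, inv_one]

end M2a

theorem m2 : M2.{u} := by
  intro G _ _ J hJ h
  have : Fact (Nat.Prime 2) := ⟨Nat.prime_two⟩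
  refine ⟨h, ?_⟩
  rcases h.ty with ⟨hA, hA2⟩ | hB
  · obtain ⟨U, hU⟩ := exists_isSylowIn 2 J
    refine ⟨Om U, (Om_le U).trans hU.le, elem_iff.2 ⟨fun a ha => mc_iff.2 fun b hb => ?_, fun a ha => ?_⟩,
      fun E hN hE hC => ?_⟩
    · rw [(hA U hU).mem_Om] at ha hb
      exact hA U hU a ha.1 b hb.1 ha.2 hb.2
    · rw [pow_two, ((hA U hU).mem_Om.1 ha).2]
    obtain ⟨V, hVJ, h2, hc, -, hV⟩ := M2a.exists_V hJ hN hE hC
    obtain ⟨w, hw, hw1, hw2⟩ := M2a.exists_w h hN hE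
    obtain ⟨U', hU', hVU⟩ := exists_isSylowIn_ge (p := 2) (isP_of_two fun x hx => two_of_sq (h2 x hx)) hVJ
    have hVO : V ≤ Om U' := fun x hx => mem_Om (hVU hx) (h2 x hx)
    have e : Nat.card (Om U') = Nat.card (Om U) := by
      obtain ⟨g, -, rfl⟩ := hU.exists_conj_eq hU'
      exact (congrArg (fun X : Subgroup G => Nat.card X) (cj_Om g U)).symm.trans (card_conj_smul g _)
    rw [← e]
    by_cases hwJ : w ∈ J ⊔ 𝒞(J)
    · rw [inf_eq_left.2 (hw1 hwJ)] at hV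
      exact hV.trans (card_le_of_le hVO)
    · obtain ⟨k, hk⟩ := card_dvd_of_le hVO
      have k1 : k ≠ 1 := fun e1 => hwJ (hA2 U' hU' w (hN hw) (M2a.sq hE hw) fun a ha aa => hc w hw a (by
        rw [eq_of_le_of_card_ge hVO (by rw [hk, e1, mul_one])]
        exact mem_Om ha aa))
      have k0 : k ≠ 0 := fun e0 => by
        rw [e0, mul_zero] at hk
        exact Nat.card_pos.ne' hk
      calc Nat.card E ≤ Nat.card V * 2 := by omega
        _ ≤ _ := hk ▸ Nat.mul_le_mul_left _ (by omega)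
  · obtain ⟨a, ha, b, hb, ia, ib, hab, cab⟩ := h.four
    refine ⟨closure {a, b}, (closure_le _).2 (by rintro x (rfl | rfl) <;> assumption), M2a.elem_closure ia.1 ib.1 cab,
      fun E hN hE hC => ?_⟩
    have h4 : 4 ≤ Nat.card (closure {a, b} : Subgroup G) := by
      have m1 : a ∈ closure ({a, b} : Set G) := subset_closure (by simp)
      have m2 : b ∈ closure ({a, b} : Set G) := subset_closure (by simp)
      rw [← M2a.card4 ia ib hab, ← SetLike.coe_sort_coe, Nat.card_coe_set_eq]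
      refine Set.ncard_le_ncard ?_
      rintro x (rfl | rfl | rfl | rfl)
      exacts [one_mem _, m1, m2, mul_mem m1 m2]
    refine le_trans ?_ h4
    by_contra hlt
    obtain ⟨V, hVJ, h2, hc, hcc, hV⟩ := M2a.exists_V hJ hN hE hC
    obtain ⟨w, -, -, hw2⟩ := M2a.exists_w h hN hE
    have h3 : 1 < ((V : Set G) \ {1}).ncard := by
      rw [Set.ncard_sdiff_singleton_of_mem V.one_mem, ← Nat.card_coe_set_eq, SetLike.coe_sort_coe]
      omega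
    obtain ⟨c, d, hc1, hd1, hcd⟩ := (Set.one_lt_ncard_iff).1 h3
    have ic : Ags.Inv c := ⟨h2 c hc1.1, hc1.2⟩
    have id : Ags.Inv d := ⟨h2 d hd1.1, hd1.2⟩
    choose! f hf hf' using fun y (hy : y ∈ E) => hB c (hVJ hc1.1) d (hVJ hd1.1) ic id hcd (hcc c hc1.1 d hd1.1) y (hN hy)
      (hc y hy c hc1.1) (hc y hy d hd1.1)
    refine hlt ?_
    rw [← M2a.card4 ic id hcd, ← SetLike.coe_sort_coe, Nat.card_coe_set_eq]
    refine Set.ncard_le_ncard_of_injOn f (fun y hy => hf y hy) fun y hy y' hy' e => ?_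
    have h5 : y⁻¹ * y' ∈ E ⊓ 𝒞(J) := ⟨E.mul_mem (E.inv_mem hy) hy', by
      simpa [mul_assoc, e] using (𝒞(J)).mul_mem ((𝒞(J)).inv_mem (hf' y hy)) (hf' y' hy')⟩
    rw [hC, mem_bot] at h5
    exact inv_mul_eq_one.1 h5

end CL.Q16
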