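/-
Project Q16 (S1848): a conjugate of `L₁` which centralises an involution of `Y`.
-/
import Cfsg.Agent.Q16.Defs

set_option autoImplicit false

namespace CL.Q16

open Cfsg Subgroup CL.Even CL.Grp CL.Loc CL.Ags
open scoped commutatorElement

universe u

namespace PRh

variable {G : Type u} [Group G]

theorem cmt_two {M : Subgroup G} {u c d : G} (hu : u ∈ 𝒩(M)) (hc : c ∈ M ∨ u * c ∈ M) (hd : d ∈ M ∨ u * d ∈ M) :
    ⁅c, d⁆ ∈ M := by
  have key : ∀ x, x ∈ M ∨ u * x ∈ M → x ∈ 𝒩(M) := fun x hx =>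
    hx.elim (fun h => le_normalizer h) fun h => (mul_mem_cancel_left hu).1 (le_normalizer h)
  rcases hc with hc | hc
  · exact cmt_mem_l hc (key d hd)
  rcases hd with hd | hd
  · exact cmt_mem_r (key c (.inr hc)) hd
  have hm : d⁻¹ * c ∈ M := by simpa [mul_assoc] using mul_mem (inv_mem hd) hc
  have := conj_mem (key d (.inr hd)) (cmt_mem_l hm (key d (.inr hd)))
  convert this using 1
  simp only [commutatorElement_def]; group

/-- the counting step -/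
theorem count [Finite G] {L P A : Subgroup G} (hA : A ≤ L) (hP : P ≤ A ⊔ 𝒞(L)) (h0 : P ⊓ 𝒞(L) ≤ 𝒞(P))
    (he : (𝒞(P)).relIndex P = (𝒞(L)).relIndex L) : L ≤ A ⊔ 𝒞(L) := by
  have n0 : ∀ H K : Subgroup G, H.relIndex K ≠ 0 := fun H K => index_ne_zero_of_finite
  have h1 := relIndex_le_of_le_left (L := P) h0 (n0 _ _)
  rw [he, inf_relIndex_left] at h1
  have h2 := relIndex_le_of_le_right (H := 𝒞(L)) hP (n0 _ _)
  have h3 := relIndex_mul_relIndex 𝒞(L) (A ⊔ 𝒞(L)) (L ⊔ 𝒞(L)) le_sup_right (sup_le_sup_right hA _)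
  rw [relIndex_sup_of_le_normalizer (le_norm_cent (le_normalizer (H := L)))] at h3
  have h4 : (A ⊔ 𝒞(L)).relIndex (L ⊔ 𝒞(L)) = 1 := by
    have a := n0 (A ⊔ 𝒞(L)) (L ⊔ 𝒞(L))
    have b := n0 𝒞(L) (A ⊔ 𝒞(L))
    have c := h1.trans h2
    rw [← h3] at c
    have := Nat.le_of_mul_le_mul_left (c.trans_eq (mul_one _).symm) (Nat.pos_of_ne_zero b)
    omega
  exact le_sup_left.trans (relIndex_eq_one.1 h4)

end PRh

open PRh in
theorem pr : PR.{u} := by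
  intro G _ _ T L₁ L₂ z u h K h1K h2K g hg hgn e he hc
  have q1 := h.q1.qs
  have q2 := h.q2.qs
  have c12 : L₁ ≤ 𝒞(L₂) := le_cent_iff.2 ((h.c1.eq_or_commutator_eq_bot h.c2).resolve_left h.ne)
  have qP : IsQuasisimple (cj g⁻¹ L₁) := IsQuasisimple.map_of_injective q1 (MulAut.conj g⁻¹).injective
  have pP := IsQuasisimple.commutator_self qP
  have hu : u ∈ 𝒩(𝒩(L₁)) := cj_eq_iff_mem.1 (by rw [cj_norm, h.e1, h.n12])
  have hce : ∀ c ∈ cj g⁻¹ L₁, c ∈ 𝒩(L₁) ∨ u * c ∈ 𝒩(L₁) := fun c hcP => by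
    refine h.ce e he c ?_
    have := (cm_of hc (mem_cj.1 hcP)).map (MulAut.conj g⁻¹)
    simpa [mul_assoc] using this.symm
  have hPM : cj g⁻¹ L₁ ≤ 𝒩(L₁) := by
    rw [← pP, commutator_le]
    exact fun c hc d hd => cmt_two hu (hce c hc) (hce d hd)
  have hP12 := h.pf _ hPM
  have hPK : cj g⁻¹ L₁ ≤ K := cj_le_of_le h1K (inv_mem hg)
  have hdec : ∀ x ∈ cj g⁻¹ L₁, ∃ a ∈ L₁, ∃ b ∈ L₂, a * b = x := fun x hx =>
    (mem_sup_nl ((cent_symm c12).trans (cent_le_norm _))).1 (hP12 hx)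
  have hn : cj g⁻¹ L₁ ≤ 𝒩(cj g⁻¹ L₁ ⊓ 𝒞(L₂)) := le_norm_inf le_normalizer (le_norm_cent (h.n12 ▸ hPM))
  rcases IsQuasisimple.eq_or_commutator_eq_bot qP inf_le_left hn with e1 | e1
  · have hle : cj g⁻¹ L₁ ≤ L₁ ⊔ L₂ ⊓ 𝒞(L₂) := fun x hx => by
      obtain ⟨a, ha, b, hb, rfl⟩ := hdec x hx
      exact mul_mem_sup ha ⟨hb, (mul_mem_cancel_left (c12 ha)).1 (inf_eq_left.1 e1 hx)⟩
    have h3 : ⁅L₁ ⊔ L₂ ⊓ 𝒞(L₂), L₁ ⊔ L₂ ⊓ 𝒞(L₂)⁆ ≤ ⁅L₁, L₁⁆ := by
      refine commutator_le_of_le_sup_centralizer le_sup_left ?_ le_rfl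
      rw [cent_sup]
      exact le_inf (inf_le_left.trans (cent_symm c12)) (inf_le_right.trans (cent_mono inf_le_left))
    rw [IsQuasisimple.commutator_self q1] at h3
    exact hgn (inv_mem_iff.1 (mem_norm_of_cj_le (pP ▸ (commutator_mono hle hle).trans h3)))
  · have hle : cj g⁻¹ L₁ ≤ K ⊓ L₂ ⊔ 𝒞(L₂) := fun x hx => by
      obtain ⟨a, ha, b, hb, rfl⟩ := hdec x hx
      exact mul_mem (mem_sup_right (c12 ha)) (mem_sup_left ⟨(mul_mem_cancel_left (h1K ha)).1 (hPK hx), hb⟩)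
    have h4 := count inf_le_right hle (le_cent_iff.2 e1) (by
      rw [← h.e2, ← cj_mul, ← cj_cent]
      exact relIndex_map_map_of_injective _ _ (MulAut.conj (g⁻¹ * u)).injective)
    have h5 := commutator_le_of_le_sup_centralizer inf_le_right le_rfl h4
    rw [IsQuasisimple.commutator_self q2] at h5
    exact h2K (h5.trans ((commutator_mono inf_le_left inf_le_left).trans (commutator_le_self K)))

end CL.Q16
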