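/-
Project Q16: the pump-up of a component of an involution centraliser (L-balance).
-/
import Cfsg.Agent.Q16.Defs
import Cfsg.Agent.K.Bal2
import Cfsg.Agent.Loc.LBal
import Cfsg.Agent.Loc.Diagonal
import Cfsg.Agent.Odd.FT

set_option autoImplicit false

namespace CL.Q16

open Cfsg Subgroup CL.Even CL.Grp CL.Loc CL.Ags
open scoped commutatorElement Pointwise

universe u

theorem pu : PU.{u} := by
  intro G _ _ J z t _ ho zz zt hJ Jt
  have zt' : z ∈ Ce t := mem_centralizer_singleton_iff.2 zt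
  have d : 2 ∣ Nat.card J := by
    by_contra q
    exact IsQuasisimple.not_isSolvable hJ.2 (CL.Odd.feit_thompson (Nat.odd_iff.2 (by omega)))
  have c : PComp 2 J (Ce z ⊓ Ce t) :=
    ⟨(hJ.of_le (le_inf hJ.le Jt) inf_le_left).1, isPQuasi_of_isQuasisimple hJ.2 d⟩
  have e : (Ce z ⊓ Ce t).subgroupOf (Ce t) = 𝒞(zpowers (⟨z, zt'⟩ : Ce t)) := by
    rw [zpowers_eq_closure, centralizer_closure]
    ext x
    simp only [mem_subgroupOf, mem_inf, mem_centralizer_singleton_iff, Subtype.ext_iff]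
    exact ⟨fun h => h.1, fun h => ⟨h, mem_centralizer_singleton_iff.1 x.2⟩⟩
  have c' := (pComp_subgroupOf_iff Jt inf_le_right).2 c
  rw [e] at c'
  have hP : IsPGroup 2 (zpowers (⟨z, zt'⟩ : Ce t)) :=
    isPGroup_zpowers (k := 1) (Subtype.ext (by simpa [pow_two] using zz))
  obtain ⟨K', hK', le⟩ := c'.exists_le_orb (pLayer_eq_layer ho ▸ CL.BM.B2.lBal_two _ _ hP c')
  have hK : IsCompIn (K'.map (Ce t).subtype) (Ce t) := isCompIn_map_subtype_iff.2 hK'
  have le' := map_mono (f := (Ce t).subtype) le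
  rw [map_orb, subgroupOf_map_subtype, inf_eq_left.2 Jt, MonoidHom.map_zpowers] at le'
  generalize K'.map (Ce t).subtype = K at hK le'
  have le2 : J ≤ K ⊔ cj z K := le'.trans (orb_le_of_le_norm le_sup_left (zpowers_le.2 (cj_eq_iff_mem.1 (by
    show cj z (K ⊔ cj z K) = _
    rw [Subgroup.map_sup, ← cj_mul, zz, cj_one, sup_comm]))))
  refine ⟨K, hK, ?_⟩
  by_cases h : cj z K = K
  · exact Or.inl ⟨by rwa [h, sup_idem] at le2, cj_eq_iff_mem.1 h⟩
  · have hc : ⁅K, MulAut.conj z • K⁆ = ⊥ :=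
      (hK.eq_or_commutator_eq_bot (hK.conj_smul_of_mem_normalizer (le_normalizer zt'))).resolve_left fun q => h q.symm
    refine Or.inr ⟨h, hJ.eq_of_le (isQuasisimple_diagSub hK.2 hc) ?_ (diagSub_le_centralizer zz hc)⟩
    rw [← subgroupLayer_inf_centralizer_eq_diagSub zz hK.2 hc]
    exact (hJ.of_le (le_inf le2 hJ.le) inf_le_right).le_subgroupLayer

end CL.Q16
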