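/-
Project Q16: a non-normal component of an involution centraliser in a quasithin group has odd rank one, and two
conjugates.
-/
import Cfsg.Agent.Q16.Defs
import Cfsg.Agent.Loc.KConn
import Cfsg.Agent.Loc.PConstr

set_option autoImplicit false

namespace CL.Q16

open Cfsg Subgroup CL.Even CL.Grp CL.Loc CL.Ags

universe u

namespace Rk1h

variable {G : Type*} [Group G] [Finite G] {p k : ℕ}

theorem step (hp : p.Prime) {A : Subgroup G} {y : G} (hA : IsElementaryAbelian p A) (hc : p ^ k ≤ Nat.card A)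
    (hy : y ^ p = 1) (hyc : ∀ a ∈ A, Commute a y) (hyA : y ∉ A) :
    IsElementaryAbelian p (A ⊔ zpowers y) ∧ p ^ (k + 1) ≤ Nat.card (A ⊔ zpowers y : Subgroup G) := by
  have := Fact.mk hp
  have h1 : IsElementaryAbelian p (A ⊔ zpowers y) :=
    ea_sup hA (ea_zpowers hy) (cent_symm (zpowers_le.2 (mc_iff.2 fun a ha => (hyc a ha).symm)))
  refine ⟨h1, pow_succ_le_card_of_lt (ea_isPGroup h1) (hc.trans_lt ?_)⟩
  by_contra hn
  have e : A = A ⊔ zpowers y := eq_of_le_of_card_ge le_sup_left (not_lt.1 hn)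
  exact hyA (e ▸ mem_sup_right (mem_zpowers y))

theorem three (hp : p.Prime) {H L M : Subgroup G} (hH : PRankLE p 2 H) {a b x : G} (haH : a ∈ H) (hbH : b ∈ H)
    (hxH : x ∈ H) (ha : a ^ p = 1) (hb : b ^ p = 1) (hx : x ^ p = 1) (hx1 : x ≠ 1) (haL : a ∈ L) (haC : a ∉ 𝒞(L))
    (hbM : b ∈ M) (hbC : b ∉ 𝒞(M)) (hML : M ≤ 𝒞(L)) (hxL : x ∈ 𝒞(L)) (hxM : x ∈ 𝒞(M)) : False := by
  obtain ⟨e1, c1⟩ := step (k := 0) hp ea_bot (by simp) hx (fun a ha => by rw [mem_bot.1 ha]; exact Commute.one_left _)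
    (fun h => hx1 (mem_bot.1 h))
  have l1 : ⊥ ⊔ zpowers x ≤ 𝒞(M) := sup_le bot_le (zpowers_le.2 hxM)
  obtain ⟨e2, c2⟩ := step hp e1 c1 hb (fun a ha => cm_of (l1 ha) hbM) fun h => hbC (l1 h)
  have l2 : ⊥ ⊔ zpowers x ⊔ zpowers b ≤ 𝒞(L) := sup_le (sup_le bot_le (zpowers_le.2 hxL)) (zpowers_le.2 (hML hbM))
  obtain ⟨e3, c3⟩ := step hp e2 c2 ha (fun a ha => cm_of (l2 ha) haL) fun h => haC (l2 h)
  have := pRankLE_subgroup_iff_ea.1 hH _
    (sup_le (sup_le (sup_le bot_le (zpowers_le.2 hxH)) (zpowers_le.2 hbH)) (zpowers_le.2 haH)) e3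
  exact absurd (c3.trans this) (not_le.2 (Nat.pow_lt_pow_right hp.one_lt (by norm_num)))

omit [Finite G] in
theorem eq_one (hp : p.Prime) (h2 : p ≠ 2) {Z : Subgroup G} (hZ : IsPGroup 2 Z) {x : G} (hx : x ∈ Z) {n : ℕ}
    (h : x ^ p ^ n = 1) : x = 1 :=
  eq_one_of_coprime_of_mem hZ ((((Nat.coprime_primes hp Nat.prime_two).2 h2).pow_left n).coprime_dvd_left
    (orderOf_dvd_of_pow_eq_one h)) hx

omit [Finite G] in
theorem cj_notMem {L : Subgroup G} {a : G} (g : G) (h : a ∉ 𝒞(L)) : g * a * g⁻¹ ∉ 𝒞(cj g L) := fun h' => by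
  rw [← cj_cent, mem_cj] at h'
  exact h (by simpa [mul_assoc] using h')

end Rk1h

open Rk1h in
theorem rk1 : Rk1.{u} := by
  intro G _ _ hq L z c hz hL hZ hc hne
  have hZ' : IsPGroup 2 (L ⊓ 𝒞(L) : Subgroup G) := map_center_subtype_eq_inf L ▸ hZ.map L.subtype
  have hrk : ∀ p : ℕ, p.Prime → p ≠ 2 → PRankLE p 2 (Ce z) := fun p hp h2 =>
    pRankLE_mono_le (hq p hp h2 𝒩(zpowers z) ⟨zpowers z, isPGroup_zpowers (k := 1) (by rw [pow_one, pow_two, hz.1]),
      zpowers_ne_bot.2 hz.2, rfl⟩) (le_trans (by rw [zpowers_eq_closure, centralizer_closure]) (cent_le_norm _))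
  have hcomp : ∀ d : G, Commute d z → IsCompIn (cj d L) (Ce z) := fun d hd =>
    hL.conj_smul_of_mem_normalizer (le_normalizer (mem_centralizer_singleton_iff.2 hd.eq))
  have hcen : ∀ {K M : Subgroup G}, IsCompIn K (Ce z) → IsCompIn M (Ce z) → K ≠ M → K ≤ 𝒞(M) := fun hK hM h =>
    le_cent_iff.2 ((hK.eq_or_commutator_eq_bot hM).resolve_left h)
  have hcL := hcen (hcomp c hc) hL hne
  refine ⟨fun p hp h2 A hA hAp => ?_, fun d hd => ?_⟩
  · have := Fact.mk hp
    by_contra hn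
    obtain ⟨A0, hA0⟩ := exists_isSylowIn p (A.comap (QuotientGroup.mk' (center L)))
    have h1 := isSylowIn_map hA0 (QuotientGroup.mk' (center L))
    rw [map_comap_eq_self_of_surjective (QuotientGroup.mk'_surjective _)] at h1
    have e := isSylowIn_eq_of_isPGroup h1 (ea_isPGroup ⟨hA, hAp⟩)
    have hinj : ∀ a ∈ A0, QuotientGroup.mk' (center L) a = 1 → a = 1 := fun a ha h => by
      obtain ⟨n, hn⟩ := isPGroup_iff_forall.1 hA0.isPGroup a ha
      exact eq_one hp h2 hZ ((QuotientGroup.eq_one_iff a).1 h) hn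
    have hea : IsElementaryAbelian p A0 := ea_iff.2 ⟨fun a ha b hb => by
      refine mul_inv_eq_one.1 (hinj _ (mul_mem (mul_mem ha hb) (inv_mem (mul_mem hb ha))) ?_)
      rw [map_mul, map_inv, map_mul, map_mul, ea_mul_comm ⟨hA, hAp⟩ (hA0.le ha) (hA0.le hb), mul_inv_cancel],
      fun a ha => hinj _ (pow_mem ha p) (by rw [map_pow]; exact hAp _ (hA0.le ha))⟩
    have hea' := ea_map hea L.subtype
    have hcard : p ^ (1 + 1) ≤ Nat.card (A0.map L.subtype) := by
      refine pow_succ_le_card_of_lt (ea_isPGroup hea') ((not_le.1 hn).trans_le ?_)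
      rw [card_map_of_injective L.subtype_injective, ← e]
      exact Nat.le_of_dvd Nat.card_pos (card_map_dvd _ _)
    have hle : A0.map L.subtype ≤ L := map_subtype_le _
    generalize A0.map L.subtype = B at hea' hcard hle
    obtain ⟨a, ha, ha1⟩ : ∃ a ∈ B, a ≠ 1 := by
      by_contra hb
      push Not at hb
      rw [(eq_bot_iff_forall _).2 hb, card_bot] at hcard
      exact absurd hcard (not_le.2 (Nat.one_lt_pow (by norm_num) hp.one_lt))
    have hy : c * a * c⁻¹ ∈ cj c L := conj_mem_cj c (hle ha)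
    have hyp : (c * a * c⁻¹) ^ p = 1 := by rw [conj_pow, hea'.2 a ha]; group
    obtain ⟨e3, c3⟩ := step hp hea' hcard hyp (fun b hb => (cm_of (hcL hy) (hle hb)).symm) fun h =>
      ha1 (conj_eq_one_iff.1 (eq_one hp h2 hZ' ⟨hle h, hcL hy⟩ (n := 1) (by rwa [pow_one])))
    have := pRankLE_subgroup_iff_ea.1 (hrk p hp h2) _
      (sup_le (hle.trans hL.le) (zpowers_le.2 ((hcomp c hc).le hy))) e3
    exact absurd (c3.trans this) (not_le.2 (Nat.pow_lt_pow_right hp.one_lt (by norm_num)))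
  · by_contra hn
    push Not at hn
    obtain ⟨r, hr, hrd, h2⟩ : ∃ r : ℕ, r.Prime ∧ r ∣ Nat.card L ∧ r ≠ 2 := by
      by_contra hb
      push Not at hb
      have h2 : IsPGroup 2 L :=
        IsPGroup.of_card (Nat.eq_prime_pow_of_unique_prime_dvd Nat.card_pos.ne' fun hd hd' => hb _ hd hd')
      have := h2.isNilpotent
      exact IsQuasisimple.not_isSolvable hL.2 inferInstance
    have := Fact.mk hr
    obtain ⟨x, hx⟩ := exists_prime_orderOf_dvd_card' r hrd
    have hxo : orderOf (x : G) = r := (orderOf_coe x).trans hx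
    have hxr : (x : G) ^ r = 1 := hxo ▸ pow_orderOf_eq_one _
    have hx1 : (x : G) ≠ 1 := fun e => hr.one_lt.ne (by rw [← hxo, e, orderOf_one])
    have hxC : (x : G) ∉ 𝒞(L) := fun h => hx1 (eq_one hr h2 hZ' ⟨x.2, h⟩ (n := 1) (by rwa [pow_one]))
    have hb := conj_mem_cj c x.2
    have hx' := conj_mem_cj d x.2
    exact three hr (hrk r hr h2) (hL.le x.2) ((hcomp c hc).le hb) ((hcomp d hd).le hx') hxr
      (by rw [conj_pow, hxr]; group) (by rw [conj_pow, hxr]; group) (fun e => hx1 (conj_eq_one_iff.1 e)) x.2 hxC hb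
      (cj_notMem c hxC) hcL (hcen (hcomp d hd) hL hn.1 hx') (hcen (hcomp d hd) (hcomp c hc) hn.2 hx')

end CL.Q16
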