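/-
Project Q16: two commuting conjugates of a quasisimple subgroup of a quasithin group.
-/
import Cfsg.Agent.Q16.Rk1
import Cfsg.Agent.Grp.PNilpFrob
import Cfsg.Agent.Odd.FT

set_option autoImplicit false

namespace CL.Q16

open Cfsg Subgroup CL.Even CL.Grp CL.Loc CL.Ags

universe u

open Rk1h in
theorem rk3 : Rk3.{u} := by
  intro G _ _ hq L hL hZ
  obtain ⟨P⟩ : Nonempty (Sylow 2 L) := inferInstance
  have hn : ¬ HasNormalPComplement 2 L := by
    rintro ⟨P', N, hN, hc⟩
    have h1 : Group.IsSolvable N := CL.Odd.feit_thompson (by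
      rw [← hc.index_eq_card, ← Nat.not_even_iff_odd, even_iff_two_dvd]; exact P'.not_dvd_index)
    have h2 := P'.isPGroup'.isNilpotent
    have h3 : Group.IsSolvable (L ⧸ N) :=
      Group.isSolvable_of_surjective (f := hc.symm.QuotientMulEquiv.symm.toMonoidHom)
        hc.symm.QuotientMulEquiv.symm.surjective
    exact IsQuasisimple.not_isSolvable hL ((Group.isSolvable_iff_subgroup_quotient N).2 ⟨h1, h3⟩)
  obtain ⟨Q, hQP, q, k, g0, hq', hq2, ho, hgN, hgC⟩ := exists_primePow_not_mem_centralizer P hn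
  have hQ : Q ≠ ⊥ := by
    rintro rfl
    exact hgC (mc_iff.2 fun y hy => by rw [mem_bot.1 hy]; exact Commute.one_right _)
  obtain ⟨k, rfl⟩ : ∃ k', k = k' + 1 := Nat.exists_eq_succ_of_ne_zero (by
    rintro rfl
    rw [pow_zero, orderOf_eq_one_iff] at ho
    exact hgC (ho ▸ one_mem _))
  have hho : orderOf (g0 ^ q ^ k) = q := by
    rw [orderOf_pow' _ (pow_ne_zero _ hq'.ne_zero), ho, Nat.gcd_eq_right (pow_dvd_pow q k.le_succ), pow_succ,
      Nat.mul_div_cancel_left _ (pow_pos hq'.pos k)]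
  have hhN := pow_mem hgN (q ^ k)
  generalize g0 ^ q ^ k = h at hho hhN
  refine ⟨q, hq', hq2, hho ▸ orderOf_dvd_natCard h, fun g x hg hxL hxM hx => ?_⟩
  by_contra hx1
  have hBL : Q.map L.subtype ≤ L := map_subtype_le _
  have hrk : PRankLE q 2 𝒩(Q.map L.subtype) := hq q hq' hq2 _ ⟨Q.map L.subtype,
    (P.isPGroup'.to_le hQP).map _, fun e => hQ ((map_eq_bot_iff_of_injective _ L.subtype_injective).1 e), rfl⟩
  have hCN : 𝒞(L) ≤ 𝒩(Q.map L.subtype) := (cent_mono hBL).trans (cent_le_norm _)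
  have hhq : (h : G) ^ q = 1 := by rw [← coe_pow, ← hho, pow_orderOf_eq_one, coe_one]
  have hhC : (h : G) ∉ 𝒞(L) := fun hc => by
    have e : h = 1 := Subtype.ext (eq_one hq' hq2 hZ ⟨h.2, hc⟩ (n := 1) (by rwa [pow_one]))
    rw [e, orderOf_one] at hho
    exact hq'.one_lt.ne hho
  have hb := conj_mem_cj g h.2
  exact three hq' hrk (le_normalizer_map L.subtype (mem_map_of_mem _ hhN)) (hCN (hg hb)) (hCN hxL) hhq
    (by rw [conj_pow, hhq]; group) hx hx1 h.2 hhC hb (cj_notMem g hhC) hg hxL hxM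

end CL.Q16
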