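/-
Project Q16, job SETGL: the global hypotheses hold in a quasithin group of even type.
-/
import Cfsg.Agent.Q16.Defs

set_option autoImplicit false

namespace CL.Q16

open Cfsg Subgroup CL.Even CL.Grp CL.Loc CL.Ags

universe u

namespace SetGlH

theorem evenComp_congr {L L' : Type u} [Group L] [Group L'] (e : L ≃* L') (h : IsQTEvenTypeComponent L) :
    IsQTEvenTypeComponent L' := by
  have hm := map_pCore_equiv (p := 2) e
  have q : L ⧸ pCore 2 L ≃* L' ⧸ pCore 2 L' := QuotientGroup.congr _ _ e hm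
  have k : ∀ (X : Type) [Group X], Nonempty (L ≃* X) ↔ Nonempty (L' ≃* X) := fun X _ =>
    ⟨fun ⟨a⟩ => ⟨e.symm.trans a⟩, fun ⟨a⟩ => ⟨e.trans a⟩⟩
  have k' : ∀ (X : Type) [Group X], Nonempty (L ⧸ pCore 2 L ≃* X) ↔ Nonempty (L' ⧸ pCore 2 L' ≃* X) := fun X _ =>
    ⟨fun ⟨a⟩ => ⟨q.symm.trans a⟩, fun ⟨a⟩ => ⟨q.trans a⟩⟩
  have b : pCore 2 L = ⊥ ↔ pCore 2 L' = ⊥ := by rw [← hm, map_eq_bot_iff_of_injective _ e.injective]
  have c : IsElementaryAbelian 2 (pCore 2 L) ↔ IsElementaryAbelian 2 (pCore 2 L') :=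
    ⟨fun a => hm ▸ elem_map _ a, fun a => map_pCore_equiv (p := 2) e.symm ▸ elem_map _ a⟩
  simpa only [IsQTEvenTypeComponent, IsChevSimple, IsLieTypeChar, IsPSLChar, IsPSpChar, IsPSUChar, IsPOmegaOddChar,
    IsPOmegaPlusChar, IsPOmegaMinusChar, IsExceptionalChevChar, IsTwistedE6D4Char, Lie.IsoSuzuki, Lie.Iso2F4,
    Lie.IsoRee, Lie.IsoTits, Spor.IsoM11, Spor.IsoM12, Spor.IsoM22, Spor.IsoM23, Spor.IsoM24, Spor.IsoJ2, Spor.IsoJ4,
    Spor.IsoHS, Spor.IsoRu, ne_eq, k, k', b, c] using h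

theorem center_two {G : Type u} [Group G] [Finite G] {K H : Subgroup G} (hK : SubnIn K H) (ho : oddCore H = ⊥) :
    IsPGroup 2 (center K) := by
  refine isPGroup_of_coprime fun x hx hc => ?_
  have h1 : SubnIn (zpowers (x : G)) H := by
    refine (SubnIn.of_le_normalizer (zpowers_le_of_mem x.2) ?_).trans hK
    refine le_trans (fun y hy => ?_) (cent_le_norm _)
    refine mem_centralizer_iff.2 ?_
    rintro _ ⟨n, rfl⟩
    have : Commute (x : G) y := (congrArg Subtype.val (mem_center_iff.1 hx ⟨y, hy⟩)).symm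
    exact (this.zpow_left n).eq
  have h2 := le_pPrimeCoreOf_of_subnIn (p := 2) h1 (by rwa [Nat.card_zpowers, orderOf_coe])
  have h3 : pPrimeCoreOf 2 H = ⊥ := by
    change (oddCore H).map _ = ⊥
    rw [ho, Subgroup.map_bot]
  rw [h3] at h2
  exact Subtype.ext (mem_bot.1 (h2 (mem_zpowers _)))

end SetGlH

open SetGlH in
theorem setGl (h : LKAll.{u}) : SetGl.{u} := by
  intro G _ _ hq hE
  have h1 : ∀ t : G, Inv t → ∀ K : Subgroup G, IsCompIn K (Ce t) → IsQTEvenTypeComponent K := fun t it K hK =>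
    evenComp_congr (subgroupOfEquivOfLe hK.le) (hE.2 t (inv_iff.1 it) _ (isCompIn_iff.1 hK).2)
  refine ⟨⟨hq, fun t it => hE.1 t (inv_iff.1 it), fun t it K hK => ?_⟩, h1⟩
  have h2 := center_two hK.1 (hE.1 t (inv_iff.1 it))
  exact ⟨h2, h K hK.2 h2 (h1 t it K hK)⟩

end CL.Q16
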