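/-
Project Q16: a component of `C(y)` over `L₁` that does not contain `L₂` is `L₁`.
-/
import Cfsg.Agent.Q16.Defs

set_option autoImplicit false

namespace CL.Q16

open Cfsg Subgroup CL.Even CL.Grp CL.Loc CL.Ags

universe u

namespace Three

variable {G : Type*} [Group G]

theorem mem_Ce {x y : G} : y ∈ Ce x ↔ Commute y x := mem_centralizer_singleton_iff

theorem cj_Ce (g x : G) : cj g (Ce x) = Ce (g * x * g⁻¹) := by
  ext y
  rw [mem_cj, mem_Ce, mem_Ce]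
  constructor
  · intro h
    have := h.eq
    show y * (g * x * g⁻¹) = g * x * g⁻¹ * y
    calc y * (g * x * g⁻¹) = g * (g⁻¹ * y * g * x) * g⁻¹ := by group
      _ = g * (x * (g⁻¹ * y * g)) * g⁻¹ := by rw [this]
      _ = _ := by group
  · intro h
    have := h.eq
    show g⁻¹ * y * g * x = x * (g⁻¹ * y * g)
    calc g⁻¹ * y * g * x = g⁻¹ * (y * (g * x * g⁻¹)) * g := by group
      _ = g⁻¹ * (g * x * g⁻¹ * y) * g := by rw [this]
      _ = _ := by group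

theorem zp {z x : G} (zz : z * z = 1) (hx : x ∈ zpowers z) : x = 1 ∨ x = z := by
  obtain ⟨n, rfl⟩ := mem_zpowers_iff.1 hx
  have h2 : z ^ (2 : ℤ) = 1 := by rw [zpow_two]; exact zz
  obtain ⟨k, rfl | rfl⟩ := Int.even_or_odd' n
  · left; rw [zpow_mul, h2, one_zpow]
  · right; rw [zpow_add, zpow_mul, h2, one_zpow, one_mul, zpow_one]

theorem elem_zp {z : G} (zz : z * z = 1) : IsElementaryAbelian 2 (zpowers z) := by
  refine elem_iff.2 ⟨fun x hx => mc_iff.2 fun y hy => ?_, fun a ha => ?_⟩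
  · rcases zp zz hx with rfl | rfl
    · exact Commute.one_left _
    · rcases zp zz hy with rfl | rfl
      · exact Commute.one_right _
      · exact Commute.refl _
  · rcases zp zz ha with rfl | rfl
    · exact one_pow _
    · rw [pow_two]; exact zz

theorem elem_cj {V : Subgroup G} (h : IsElementaryAbelian 2 V) (g : G) : IsElementaryAbelian 2 (cj g V) := by
  refine elem_iff.2 ⟨by rw [← cj_cent]; exact cj_mono g (elem_le_cent h), fun a ha => ?_⟩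
  have := (elem_iff.1 h).2 _ (mem_cj.1 ha)
  calc a ^ 2 = g * (g⁻¹ * a * g) ^ 2 * g⁻¹ := by simp only [pow_two]; group
    _ = 1 := by rw [this]; group

theorem Yy_conj {L : Subgroup G} {e l : G} (h : Yy L e) (hl : l ∈ 𝒞(L)) : Yy L (l * e * l⁻¹) := by
  refine ⟨h.1.conj l, ?_⟩
  have : IsCompIn (cj l L) (cj l (Ce e)) := h.2.conj_smul l
  rwa [cj_eq_of_mem_cent hl, cj_Ce] at this

theorem center_bot {L : Subgroup G} (h : L ⊓ 𝒞(L) = ⊥) : center L = ⊥ := by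
  rw [eq_bot_iff]
  intro x hx
  have : (x : G) ∈ L ⊓ 𝒞(L) := ⟨x.2, mc_iff.2 fun y hy => by
    have := congrArg Subtype.val (mem_center_iff.1 hx ⟨y, hy⟩)
    exact this.symm⟩
  rw [h] at this
  exact mem_bot.2 (Subtype.ext (mem_bot.1 this))

end Three

open Three in
theorem three (h1 : NACongr'.{u}) (h2 : NiceOf.{u}) (h3 : CoreQ.{u}) (h4 : PR.{u}) : Three.{u} := by
  intro G _ _ T L₁ L₂ z u h y hy iy cy hs1 K hK hLK hn
  have q : IsQuasisimple L₁ := h.q1.qs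
  have hT1 : IsSylowIn 2 (T ⊓ 𝒩(L₁) ⊓ L₁) L₁ := h.s0.inf_of_normalized le_normalizer le_rfl
  have Ly : L₁ ≤ Ce y := fun l hl => mem_Ce.2 (cm_of cy hl).symm
  have T1S : T ⊓ 𝒩(L₁) ⊓ L₁ ≤ T ⊓ 𝒩(L₁) ⊓ Ce y := inf_le_inf_left _ Ly
  have z1 : z ∈ 𝒞(L₁) := mc_iff.2 fun l hl => (mem_Ce.1 (h.c1.le hl)).symm
  have z2 : z ∈ 𝒞(L₂) := mc_iff.2 fun l hl => (mem_Ce.1 (h.c2.le hl)).symm
  have zS : z ∈ T ⊓ 𝒩(L₁) ⊓ Ce y := ⟨⟨h.zT, cent_le_norm _ z1⟩, mem_Ce.2 (cm_of h.zc hy)⟩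
  have hU : 𝒩(L₁) ⊓ Ce y ≤ Ce y ⊓ 𝒩(K) := by
    intro s hs
    refine ⟨hs.2, ?_⟩
    have hc : IsCompIn (cj s K) (Ce y) := hK.conj_smul_of_mem_normalizer (le_normalizer hs.2)
    rcases hc.eq_or_commutator_eq_bot hK with e | e
    · exact cj_eq_iff_mem.1 e
    · have hl : L₁ ≤ cj s K := by
        have := cj_mono s hLK
        rwa [cj_eq hs.1] at this
      exact absurd (hl.trans ((le_cent_iff.2 e).trans (cent_mono hLK))) (IsQuasisimple.not_le_centralizer q)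
  obtain ⟨P, hP, hSP⟩ := exists_isSylowIn_ge hs1.isPGroup (hs1.le.trans hU)
  rcases hSP.eq_or_lt with e | lt
  · rw [← e] at hP
    have hS := hP.inf_of_normalized (le_inf hK.le le_normalizer) inf_le_right
    refine h3 G K L₁ _ _ z hK.2 (h.gl.lk y iy K hK).1 (h.gl.lk y iy K hK).2 h.iz.1 (hU (hs1.le zS)).2
      (h.c1.of_le (le_inf hLK h.c1.le) inf_le_right) h.q1.na hS
      (le_inf le_rfl fun s hs => mem_Ce.2 (cm_of h.zc hs.1.1.1).symm) (fun s hs => hs.1.1.2) (by omega)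
  exfalso
  obtain ⟨g, ⟨gP, gS⟩, gn⟩ := SetLike.exists_of_lt (lt_inf_normalizer_of_isPGroup hP.isPGroup lt)
  have gN : g ∉ 𝒩(L₁) := by
    intro hg
    have e : P ⊓ 𝒩(L₁) = T ⊓ 𝒩(L₁) ⊓ Ce y :=
      hs1.eq_of_le (hP.isPGroup.to_le inf_le_left) (le_inf hSP fun s hs => hs.1.2)
        fun s hs => ⟨hs.2, (hP.le hs.1).1⟩
    exact gn (e ▸ (⟨gP, hg⟩ : g ∈ P ⊓ 𝒩(L₁)))
  have star := h4 G T L₁ L₂ z u h K hLK hn g (hP.le gP).2 gN
  have hT0 : IsPGroup 2 (T ⊓ 𝒩(L₁) : Subgroup G) := h.s0.isPGroup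
  by_cases hZ : L₁ ⊓ 𝒞(L₁) = ⊥
  swap
  · obtain ⟨w, hw, iw⟩ := exists_inv_of_isP h.q1.z2 hZ
    have nZ : 𝒩(L₁) ≤ 𝒩(L₁ ⊓ 𝒞(L₁)) := le_norm_inf le_rfl (le_norm_cent le_rfl)
    obtain ⟨ζ, hζ, iζ, cζ⟩ := exists_inv_cent hT0 (inf_le_right.trans nZ) hw iw
    have hY := h.i1 ζ iζ cζ hζ.2
    have ζS : ζ ∈ T ⊓ 𝒩(L₁) ⊓ Ce y :=
      ⟨h.s0.le_of_normalized h.q1.z2 (inf_le_left.trans le_normalizer) nZ hζ, Ly hζ.1⟩
    have c1 : g * ζ * g⁻¹ ∈ 𝒞(T ⊓ 𝒩(L₁) ⊓ Ce y) := conj_mem (norm_cent gS) (cent_mono inf_le_left cζ)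
    exact star ζ (Or.inl hY)
      (h.q1.cov hZ _ hT1 _ (conj_mem gS ζS).1.2 (iζ.conj g).1 (cent_mono T1S c1))
  have na : NA L₁ := h1 L₁ (L₁ ⧸ center L₁)
    ⟨((QuotientGroup.quotientMulEquivOfEq (center_bot hZ)).trans QuotientGroup.quotientBot).symm⟩ h.q1.na
  have nice : Nice L₁ := h2 G L₁ hZ na
  obtain ⟨W, hW, eW, mW⟩ := nice.m2
  obtain ⟨l, hl, hW'⟩ := syl_conj_le hT1 (elem_isP eW) hW
  have eW' := elem_cj eW l
  have W'L : cj l W ≤ L₁ := hW'.trans inf_le_right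
  obtain ⟨a, ha, -, -, ia, -⟩ := h.q1.four
  obtain ⟨a0, ha0, i0, c0⟩ := exists_inv_cent hT0 inf_le_right ha ia
  have c12 : L₁ ≤ 𝒞(L₂) := le_cent_iff.2 ((h.c1.eq_or_commutator_eq_bot h.c2).resolve_left h.ne)
  have Y0 : Yy L₂ a0 := h.i2 a0 i0 c0 (c12 ha0)
  have iz0 : Ags.Inv (z * a0) := by
    refine ⟨?_, fun e => i0.2 ?_⟩
    · calc z * a0 * (z * a0) = z * (a0 * z) * a0 := by group
        _ = z * (z * a0) * a0 := by rw [(cm_of z1 ha0).eq]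
        _ = z * z * (a0 * a0) := by group
        _ = 1 := by rw [h.iz.1, i0.1, one_mul]
    · have hc : a0 ∈ 𝒞(L₁) := by rw [← inv_eq_of_mul_eq_one_right e]; exact inv_mem z1
      have : a0 ∈ L₁ ⊓ 𝒞(L₁) := ⟨ha0, hc⟩
      rw [hZ] at this
      exact mem_bot.1 this
  have Yz0 : Yy L₂ (z * a0) :=
    h.i2 _ iz0 (mul_mem (cent_mono inf_le_left h.zc) c0) (mul_mem z2 (c12 ha0))
  have YY : ∀ b ∈ L₁, Ags.Inv b → Yy L₂ b ∧ Yy L₂ (z * b) := by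
    intro b hb ib
    obtain ⟨k, hk, rfl⟩ := nice.one a0 ha0 b hb i0 ib
    refine ⟨Yy_conj Y0 (c12 hk), ?_⟩
    have := Yy_conj Yz0 (c12 hk)
    rwa [show k * (z * a0) * k⁻¹ = z * (k * a0 * k⁻¹) by
      rw [← mul_assoc k, ← (cm_of z1 hk).eq]; group] at this
  have cWz : cj l W ≤ 𝒞(zpowers z) := cent_symm (zpowers_le.2 (cent_mono W'L z1))
  have eE : IsElementaryAbelian 2 (cj l W ⊔ zpowers z : Subgroup G) := elem_sup eW' (elem_zp h.iz.1) cWz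
  have ES : cj l W ⊔ zpowers z ≤ T ⊓ 𝒩(L₁) ⊓ Ce y := sup_le (hW'.trans T1S) (zpowers_le.2 zS)
  have YE : ∀ e ∈ cj l W ⊔ zpowers z, e ≠ 1 → Yy L₁ e ∨ Yy L₂ e := by
    intro e he e1
    obtain ⟨w, hw, x, hx, rfl⟩ := (mem_sup_nr (cWz.trans (cent_le_norm _))).1 he
    have ww : w * w = 1 := by rw [← pow_two]; exact (elem_iff.1 eW').2 w hw
    rcases zp h.iz.1 hx with rfl | rfl
    · rw [mul_one] at e1 ⊢
      exact Or.inr (YY w (W'L hw) ⟨ww, e1⟩).1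
    · by_cases w1 : w = 1
      · rw [w1, one_mul]; exact Or.inl ⟨h.iz, h.c1⟩
      · rw [← (cm_of z1 (W'L hw)).eq]
        exact Or.inr (YY w (W'L hw) ⟨ww, w1⟩).2
  have hle := mW (cj g (cj l W ⊔ zpowers z)) ((cj_le_of_le ES gS).trans fun s hs => hs.1.2) (elem_cj eE g) (by
    rw [eq_bot_iff]
    intro x hx
    by_contra x1
    refine star _ (YE _ (mem_cj.1 hx.1) fun e => x1 (mem_bot.2 ?_)) ?_
    · calc x = g * (g⁻¹ * x * g) * g⁻¹ := by group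
        _ = 1 := by rw [e]; group
    · rw [show g * (g⁻¹ * x * g) * g⁻¹ = x by group]; exact hx.2)
  rw [card_cj, ← card_cj l W] at hle
  have e := Subgroup.eq_of_le_of_card_ge (le_sup_left : cj l W ≤ cj l W ⊔ zpowers z) hle
  have : z ∈ L₁ ⊓ 𝒞(L₁) := ⟨W'L (e.ge (mem_sup_right (mem_zpowers z))), z1⟩
  rw [hZ] at this
  exact h.iz.2 (mem_bot.1 this)

end CL.Q16
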