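/-
Project Q16: transfer of the facts `NA` from an abstract group to a subgroup.
-/
import Cfsg.Agent.Q16.Defs
import Cfsg.Agent.Even.ParChar

set_option autoImplicit false

namespace CL.Q16

open Cfsg Subgroup CL.Even CL.Grp CL.Loc CL.Ags

universe u

namespace Tr0

variable {G : Type u} [Group G] {J : Subgroup G}

theorem coe_hom (g : 𝒩(J)) (x : J) : (J.normalizerMonoidHom g x : G) = g * x * (g : G)⁻¹ := rfl

theorem cent {g : 𝒩(J)} {k : J} (h : J.normalizerMonoidHom g = MulAut.conj k) : (k : G)⁻¹ * g ∈ 𝒞(J) :=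
  mc_iff.2 fun y hy => by
    have : (g : G) * y * (g : G)⁻¹ = k * y * (k : G)⁻¹ := congrArg (fun a : MulAut J => (a ⟨y, hy⟩ : G)) h
    show (k : G)⁻¹ * g * y = y * ((k : G)⁻¹ * g)
    rw [show (k : G)⁻¹ * g * y = (k : G)⁻¹ * (g * y * (g : G)⁻¹) * g by group, this]
    group

theorem mem {g : 𝒩(J)} {k : J} (h : J.normalizerMonoidHom g = MulAut.conj k) : (g : G) ∈ J ⊔ 𝒞(J) :=
  (mul_inv_cancel_left (k : G) g) ▸ mul_mem (mem_sup_left k.2) (mem_sup_right (cent h))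

theorem inv_coe {a : J} : Ags.Inv (a : G) ↔ Ags.Inv a :=
  ⟨fun h => ⟨Subtype.ext h.1, fun e => h.2 (congrArg _ e)⟩, fun h => ⟨congrArg Subtype.val h.1, fun e => h.2 (Subtype.ext e)⟩⟩

theorem sq {y : G} (hy : y ∈ 𝒩(J)) (y2 : y * y = 1) :
    J.normalizerMonoidHom ⟨y, hy⟩ * J.normalizerMonoidHom ⟨y, hy⟩ = 1 := by
  rw [← map_mul, ← map_one J.normalizerMonoidHom]
  exact congrArg _ (Subtype.ext y2)

theorem syl {U : Subgroup G} (h : IsSylowIn 2 U J) : IsSylowIn 2 (U.subgroupOf J) ⊤ :=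
  ⟨le_top, h.2.1.comap_subtype, by rw [relIndex_top_right]; exact h.2.2⟩

end Tr0

open Tr0 in
theorem trans0 : Trans.{u} := by
  intro G _ _ J _ h
  refine ⟨fun a ha b hb ia ib => ?_, ?_, fun D hD hN => ?_, fun y hy y2 hc => ?_, h.ty.imp (fun t => ⟨?_, ?_⟩) fun t => ?_⟩
  · obtain ⟨g, e⟩ := isConj_iff.1 (h.one ⟨a, ha⟩ ⟨b, hb⟩ (inv_coe.1 ia) (inv_coe.1 ib))
    exact ⟨g, g.2, congrArg Subtype.val e⟩
  · obtain ⟨a, -, b, -, ia, ib, ne, c⟩ := h.four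
    exact ⟨a, a.2, b, b.2, inv_coe.2 ia, inv_coe.2 ib, fun e => ne (Subtype.ext e), c.map J.subtype⟩
  · obtain ⟨_, ⟨w, hw, rfl⟩, k⟩ := h.cyc ((D.subgroupOf 𝒩(J)).map J.normalizerMonoidHom) (hD.comap_subtype.map _)
    refine ⟨w, hw, fun s hs => ?_⟩
    obtain ⟨i, x, e⟩ := k _ ⟨⟨s, hN hs⟩, hs, rfl⟩
    rw [← map_zpow, ← map_inv, ← map_mul] at e
    exact ⟨i, mem e⟩
  · obtain ⟨k, e⟩ := h.ch2 _ (sq hy y2) (by
      rw [← isCharP_map_iff (f := J.subtype) J.subtype_injective]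
      convert hc using 1
      ext x
      refine ⟨?_, fun hx => ⟨⟨x, hx.1⟩, Subtype.ext (WC.cm_iff.1 hx.2).symm.mul_inv_cancel, rfl⟩⟩
      rintro ⟨x, hx, rfl⟩
      exact ⟨x.2, WC.cm_iff.2 (mul_inv_eq_iff_eq_mul.1 (congrArg Subtype.val hx)).symm⟩)
    exact mem e
  · intro U hU a ha b hb a2 b2
    exact ((t _ (syl hU)).1 ⟨a, hU.1 ha⟩ ha ⟨b, hU.1 hb⟩ hb (Subtype.ext a2) (Subtype.ext b2)).map J.subtype
  · intro U hU y hy y2 hc
    obtain ⟨k, e⟩ := (t _ (syl hU)).2 _ (sq hy y2) fun a ha a2 =>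
      Subtype.ext (hc a ha (congrArg Subtype.val a2)).mul_inv_cancel
    exact mem e
  · intro a ha b hb ia ib ne c y hy ca cb
    obtain ⟨f, hf, e⟩ := t ⟨a, ha⟩ ⟨b, hb⟩ (inv_coe.1 ia) (inv_coe.1 ib) (fun e => ne (congrArg Subtype.val e))
      (Subtype.ext c.eq) (J.normalizerMonoidHom ⟨y, hy⟩) (Subtype.ext ca.mul_inv_cancel) (Subtype.ext cb.mul_inv_cancel)
    have f2 : (f : G)⁻¹ = f := by
      rcases hf with rfl | rfl | rfl | rfl
      · exact inv_one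
      · exact ia.inv_eq
      · exact ib.inv_eq
      · show (a * b)⁻¹ = a * b
        rw [mul_inv_rev, ia.inv_eq, ib.inv_eq, c.eq]
    exact ⟨f, hf.imp (congrArg _) (Or.imp (congrArg _) (Or.imp (congrArg _) (congrArg _))), f2 ▸ cent e⟩

end CL.Q16
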